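import Mathlib
import Cfsg.Agent.Mix26.ThreeCyc

/-! Hall subgroups of symmetric and alternating groups: the primes 2 and 3 lie in `π`. -/

set_option autoImplicit false

namespace Cfsg.Agent.HallSym

open Cfsg Cfsg.Agent.Core Subgroup Equiv Equiv.Perm
open Cfsg.Agent.SymNil (Fx mem_Fx orb mem_orb card_orb)

theorem conj_into {G : Type*} [Group G] [Finite G] {r : ℕ} (hr : r.Prime) {L K : Subgroup G}
    (hL : ¬ r ∣ L.index) (hK : IsPGroup r K) : ∃ g : G, ∀ k ∈ K, g * k * g⁻¹ ∈ L := by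
  haveI := Fact.mk hr
  obtain ⟨x, hx⟩ := hK.nonempty_fixed_point_of_prime_not_dvd_card (G ⧸ L) hL
  obtain ⟨g, rfl⟩ := QuotientGroup.mk_surjective x
  refine ⟨g⁻¹, fun k hk => ?_⟩
  have := QuotientGroup.eq.1 (show ((k⁻¹ * g : G) : G ⧸ L) = g from hx ⟨k⁻¹, inv_mem hk⟩)
  simpa [mul_assoc] using this

variable {α : Type*} [Fintype α] [DecidableEq α]

/-- a `π`-subgroup of the symmetric group meeting the alternating group in a Hall subgroup -/
def WH (π : Set ℕ) (H : Subgroup (Perm α)) : Prop :=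
  IsPiSubgroup π H ∧ ∀ r, r.Prime → r ∈ π → ¬ r ∣ H.relIndex (alternatingGroup α)

/-- invariant set -/
def Iv (H : Subgroup (Perm α)) (S : Finset α) : Prop := ∀ g ∈ H, ∀ x ∈ S, g x ∈ S

variable {π : Set ℕ} {H : Subgroup (Perm α)} {S : Finset α}

theorem fx_iv (S : Finset α) : Iv (Fx S) S := fun g hg x hx => by
  by_cases h : g x = x
  · rwa [h]
  · exact mem_Fx.1 hg (apply_mem_support.2 (mem_support.2 h))

theorem WH.into (h : WH π H) (hS : Iv H S) {r : ℕ} (hr : r.Prime) (hπ : r ∈ π)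
    {K : Subgroup (Perm α)} (hK : IsPGroup r K) (h1 : K ≤ Fx S ⊓ alternatingGroup α) :
    ∃ g ∈ Fx S, ∀ k ∈ K, g * k * g⁻¹ ∈ H := by
  set N := Fx S ⊓ alternatingGroup α
  have key : ∀ g ∈ H, ∀ x ∈ N, g * x * g⁻¹ ∈ N := fun g hg x hx =>
    ⟨mem_Fx.2 fun y hy => by
      rw [support_conj] at hy
      obtain ⟨z, hz, rfl⟩ := Finset.mem_map.1 hy
      exact hS g hg z (mem_Fx.1 hx.1 hz), Normal.conj_mem inferInstance _ hx.2 _⟩
  have hn : H ⊓ alternatingGroup α ≤ normalizer (N : Set (Perm α)) := fun g hg =>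
    mem_normalizer_iff.2 fun x => ⟨key g hg.1 x, fun hx => by
      simpa [mul_assoc] using key g⁻¹ (inv_mem hg.1) _ hx⟩
  have h2 : ¬ r ∣ ((H ⊓ alternatingGroup α).subgroupOf N).index := fun c => by
    refine h.2 r hr hπ ?_
    rw [← inf_relIndex_right, ← relIndex_mul_relIndex _ (N ⊔ H ⊓ alternatingGroup α) _ le_sup_right
      (sup_le inf_le_right inf_le_right), relIndex_sup_eq_relIndex hn]
    exact Dvd.dvd.mul_right c _
  obtain ⟨g, hg⟩ := conj_into hr h2 (K := K.subgroupOf N) (hK.comap_of_injective _ (subtype_injective N))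
  exact ⟨g, g.2.1, fun k hk => (hg ⟨k, h1 hk⟩ hk).1⟩

theorem exists_cyc {r : ℕ} (hr : 2 ≤ r) (hrS : r ≤ S.card) :
    ∃ c : Perm α, c.IsCycle ∧ c.support.card = r ∧ c.support ⊆ S := by
  obtain ⟨T, hT, hc⟩ := Finset.exists_subset_card_eq hrS
  have l1 : 2 ≤ T.toList.length := by rwa [Finset.length_toList, hc]
  have c2 : T.toList.formPerm.support = T := by
    rw [List.support_formPerm_of_nodup _ T.nodup_toList, Finset.toList_toFinset]
    rintro x e
    rw [e] at l1; simp at l1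
  exact ⟨_, List.isCycle_formPerm T.nodup_toList l1, by rw [c2, hc], by rwa [c2]⟩

theorem WH.cycle (h : WH π H) (hS : Iv H S) {r : ℕ} (hr : r.Prime) (hπ : r ∈ π) (h2 : r ≠ 2)
    (hrS : r ≤ S.card) : ∃ c ∈ H, c.IsCycle ∧ c.support.card = r ∧ c.support ⊆ S := by
  obtain ⟨c, c1, hc, hT⟩ := exists_cyc hr.two_le hrS
  have c3 : IsPGroup r (zpowers c) :=
    IsPGroup.of_card (n := 1) (by rw [Nat.card_zpowers, c1.orderOf, hc, pow_one])
  obtain ⟨g, hg, hk⟩ := h.into hS hr hπ c3 (zpowers_le.2 ⟨mem_Fx.2 hT, mem_alternatingGroup.2 <| by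
    rw [c1.sign, hc, (hr.odd_of_ne_two h2).neg_one_pow, neg_neg]⟩)
  refine ⟨_, hk c (mem_zpowers c), c1.conj, by rw [card_support_conj, hc], fun y hy => ?_⟩
  rw [support_conj] at hy
  obtain ⟨z, hz, rfl⟩ := Finset.mem_map.1 hy
  exact fx_iv S g hg z (hT hz)

/-- a Klein four group acting on `Q` -/
def KQ (H : Subgroup (Perm α)) (Q : Finset α) : Prop :=
  Q.card = 4 ∧ ∀ u ∈ Q, ∀ v ∈ Q, u ≠ v → ∃ s ∈ H, s u = v ∧ s v = u ∧ ∀ z ∉ Q, s z = z

theorem KQ.conj {K : Subgroup (Perm α)} {Q : Finset α} (h : KQ K Q) {g : Perm α}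
    (hg : ∀ k ∈ K, g * k * g⁻¹ ∈ H) : KQ H (Q.image g) := by
  refine ⟨by rw [Finset.card_image_of_injective _ g.injective, h.1], fun u hu v hv e => ?_⟩
  obtain ⟨u, hu', rfl⟩ := Finset.mem_image.1 hu
  obtain ⟨v, hv', rfl⟩ := Finset.mem_image.1 hv
  obtain ⟨s, hs, h1, h2, h3⟩ := h.2 u hu' v hv' (fun c => e (c ▸ rfl))
  refine ⟨_, hg s hs, by simp [h1], by simp [h2], fun z hz => ?_⟩
  rw [mul_apply, mul_apply, h3 _ fun c => hz (Finset.mem_image.2 ⟨_, c, by simp⟩)]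
  simp

theorem WH.klein (h : WH π H) (hS : Iv H S) (hπ : 2 ∈ π) (h4 : 4 ≤ S.card) :
    ∃ Q ⊆ S, KQ H Q := by
  obtain ⟨T, hT, hc⟩ := Finset.exists_subset_card_eq h4
  obtain ⟨a, T', ha, rfl, hc'⟩ := Finset.card_eq_succ.1 hc
  obtain ⟨b, c, d, h1, h2, h3, rfl⟩ := Finset.card_eq_three.1 hc'
  simp only [Finset.mem_insert, Finset.mem_singleton, not_or] at ha
  obtain ⟨a1, a2, a3⟩ := ha
  have pg : ∀ x : Perm α, x * x = 1 → IsPGroup 2 (zpowers x) := fun x hx g => ⟨1, by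
    obtain ⟨_, k, rfl⟩ := g
    apply Subtype.ext
    show (x ^ k) ^ 2 ^ 1 = 1
    rw [← zpow_natCast, ← zpow_mul, mul_comm, zpow_mul, zpow_natCast, pow_one, pow_two, hx, one_zpow]⟩
  have cm : Commute (swap a b * swap c d) (swap a c * swap b d) := by
    ext z; simp only [Perm.mul_apply, swap_apply_def]; grind
  have hK : IsPGroup 2 (zpowers (swap a b * swap c d) ⊔ zpowers (swap a c * swap b d) : Subgroup _) := by
    refine IsPGroup.to_sup_of_normal_left' (pg _ ?_) (pg _ ?_)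
      (le_trans ?_ (centralizer_le_normalizer _))
    · ext z; simp only [Perm.mul_apply, swap_apply_def, one_apply]; grind
    · ext z; simp only [Perm.mul_apply, swap_apply_def, one_apply]; grind
    · rintro _ ⟨k, rfl⟩ _ ⟨l, rfl⟩
      exact (cm.zpow_zpow l k).eq
  have f1 : ∀ z ∉ ({a, b, c, d} : Finset α), (swap a b * swap c d) z = z := fun z hz => by
    simp only [Finset.mem_insert, Finset.mem_singleton, not_or] at hz
    simp only [Perm.mul_apply, swap_apply_def]; grind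
  have f2 : ∀ z ∉ ({a, b, c, d} : Finset α), (swap a c * swap b d) z = z := fun z hz => by
    simp only [Finset.mem_insert, Finset.mem_singleton, not_or] at hz
    simp only [Perm.mul_apply, swap_apply_def]; grind
  obtain ⟨g, hg, hk⟩ := h.into hS Nat.prime_two hπ hK (sup_le
    (zpowers_le.2 ⟨mem_Fx.2 fun z hz => hT (by_contra fun c => mem_support.1 hz (f1 z c)), by
      simp [mem_alternatingGroup, a1, h3]⟩)
    (zpowers_le.2 ⟨mem_Fx.2 fun z hz => hT (by_contra fun c => mem_support.1 hz (f2 z c)), by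
      simp [mem_alternatingGroup, a2, h2]⟩))
  refine ⟨_, fun y hy => ?_, KQ.conj (Q := {a, b, c, d}) ⟨hc, fun u hu v hv e => ?_⟩ hk⟩
  · obtain ⟨z, hz, rfl⟩ := Finset.mem_image.1 hy
    exact fx_iv S g hg z (hT hz)
  have m1 := mem_sup_left (T := zpowers (swap a c * swap b d)) (mem_zpowers (swap a b * swap c d))
  have m2 := mem_sup_right (S := zpowers (swap a b * swap c d)) (mem_zpowers (swap a c * swap b d))
  have : ((swap a b * swap c d) u = v ∧ (swap a b * swap c d) v = u) ∨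
      ((swap a c * swap b d) u = v ∧ (swap a c * swap b d) v = u) ∨
      ((swap a b * swap c d * (swap a c * swap b d)) u = v ∧
        (swap a b * swap c d * (swap a c * swap b d)) v = u) := by
    simp only [Finset.mem_insert, Finset.mem_singleton] at hu hv
    have b1 := Ne.symm a1
    have b2 := Ne.symm a2
    have b3 := Ne.symm a3
    have b4 := h1.symm
    have b5 := h2.symm
    have b6 := h3.symm
    clear hk hK pg cm f1 f2 m1 m2 hc hc' hT
    rcases hu with rfl | rfl | rfl | rfl <;> rcases hv with rfl | rfl | rfl | rfl <;>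
      simp [swap_apply_def, *] at e ⊢
  rcases this with e | e | e
  · exact ⟨_, m1, e.1, e.2, f1⟩
  · exact ⟨_, m2, e.1, e.2, f2⟩
  · exact ⟨_, mul_mem m1 m2, e.1, e.2, fun z hz => by rw [mul_apply, f2 z hz, f1 z hz]⟩

theorem pow_iv {g : Perm α} {I : Finset α} (h : ∀ y ∈ I, g y ∈ I) (l : ℕ) : ∀ y ∈ I, (g ^ l) y ∈ I := by
  induction l with
  | zero => simp
  | succ l ih => exact fun y hy => by rw [pow_succ', mul_apply]; exact h _ (ih y hy)

theorem supp_sub {c : Perm α} (hc : c.IsCycle) (hp : c.support.card.Prime) {k : ℕ} (hk : c ^ k ≠ 1)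
    {I : Finset α} {x : α} (hx : x ∈ I) (hxc : x ∈ c.support) (h : ∀ y ∈ I, (c ^ k) y ∈ I) :
    c.support ⊆ I := by
  have h1 : k.Coprime (orderOf c) := by
    rw [Nat.coprime_comm, hc.orderOf, hp.coprime_iff_not_dvd, ← hc.orderOf]
    exact fun e => hk (orderOf_dvd_iff_pow_eq_one.1 e)
  obtain ⟨l, hl⟩ := exists_pow_eq_self_of_coprime h1
  intro y hy
  obtain ⟨j, rfl⟩ := hc.exists_pow_eq (mem_support.1 hxc) (mem_support.1 hy)
  exact pow_iv (hl ▸ pow_iv h l) j x hx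

theorem WH.exists_X (h : WH π H) {q : ℕ} (hq : q.Prime) (hπ : q ∈ π) (h2 : q ≠ 2)
    (hn : q ≤ Fintype.card α) : ∃ X : Finset α, Iv H X ∧ q ≤ X.card ∧ ∀ C ⊆ X, 2 ≤ C.card →
      C.card < q → ∃ g ∈ H, C.image g ≠ C ∧ (C ∩ C.image g).Nonempty := by
  classical
  refine ⟨Finset.univ.filter fun x => ∃ c ∈ H, c.IsCycle ∧ c.support.card = q ∧ x ∈ c.support,
    fun g hg x hx => ?_, ?_, fun C hC c1 c2 => ?_⟩
  · obtain ⟨c, hc, h1, h3, h4⟩ := (Finset.mem_filter.1 hx).2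
    refine Finset.mem_filter.2 ⟨Finset.mem_univ _, _, mul_mem (mul_mem hg hc) (inv_mem hg), h1.conj,
      by rwa [card_support_conj], ?_⟩
    rw [support_conj]
    exact Finset.mem_map_of_mem _ h4
  · obtain ⟨c, hc, h1, h3, -⟩ := h.cycle (S := Finset.univ) (fun _ _ _ _ => Finset.mem_univ _)
      hq hπ h2 hn
    exact h3 ▸ Finset.card_le_card fun x hx =>
      Finset.mem_filter.2 ⟨Finset.mem_univ _, c, hc, h1, rfl, hx⟩
  obtain ⟨x, hx⟩ : C.Nonempty := Finset.card_pos.1 (by omega)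
  obtain ⟨u, hu, h1, h3, h4⟩ := (Finset.mem_filter.1 (hC hx)).2
  have key : ∀ k, u ^ k ≠ 1 → C.image (u ^ k : Perm α) ≠ C := fun k hk e => by
    have := Finset.card_le_card (supp_sub h1 (h3 ▸ hq) hk hx h4 fun y hy =>
      e ▸ Finset.mem_image_of_mem _ hy)
    omega
  obtain ⟨y, hy, e⟩ := Finset.exists_mem_ne (show 1 < C.card by omega) x
  by_cases c : y ∈ u.support
  · obtain ⟨k, hk⟩ := h1.exists_pow_eq (mem_support.1 h4) (mem_support.1 c)
    exact ⟨_, pow_mem hu k, key k (fun e' => e (by rw [← hk, e', one_apply])), y,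
      Finset.mem_inter.2 ⟨hy, Finset.mem_image.2 ⟨x, hx, hk⟩⟩⟩
  · exact ⟨_, pow_mem hu 1, key 1 (by rw [pow_one]; exact h1.ne_one), y,
      Finset.mem_inter.2 ⟨hy, Finset.mem_image.2 ⟨y, hy, by
        rw [pow_one]; exact notMem_support.1 c⟩⟩⟩

theorem exists_diff {C D : Finset α} (h : C.card = D.card) (e : C ≠ D) : ∃ x ∈ C, x ∉ D := by
  by_contra! c
  exact e (Finset.eq_of_subset_of_card_le c h.ge)

theorem WH.three (h : WH π H) (hπ : 2 ∈ π) {q : ℕ} (hq : q.Prime) (hqπ : q ∈ π) (h5 : 5 ≤ q)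
    (hn : q ≤ Fintype.card α) : 3 ∈ π := by
  obtain ⟨X, h1, h2, h3⟩ := h.exists_X hq hqπ (by omega) hn
  obtain ⟨Q, hQ, hk⟩ := h.klein h1 hπ (by omega)
  obtain ⟨g, hg, e, a, ha⟩ := h3 Q hQ (by rw [hk.1]; norm_num) (by rw [hk.1]; omega)
  have hk' := hk.conj (H := H) (g := g) fun k hk => mul_mem (mul_mem hg hk) (inv_mem hg)
  generalize Q.image g = Q' at e ha hk'
  obtain ⟨a1, a2⟩ := Finset.mem_inter.1 ha
  obtain ⟨b, b1, b2⟩ := exists_diff (hk.1.trans hk'.1.symm) e.symm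
  obtain ⟨d, d1, d2⟩ := exists_diff (hk'.1.trans hk.1.symm) e
  have ab : a ≠ b := fun c => b2 (c ▸ a2)
  obtain ⟨s, hs, s1, s2, s3⟩ := hk.2 a a1 b b1 ab
  obtain ⟨t, ht, t1, t2, t3⟩ := hk'.2 a a2 d d1 fun c => d2 (c ▸ a1)
  refine h.1 3 Nat.prime_three (Dvd.dvd.trans ?_ (orderOf_dvd_natCard _ (mul_mem hs ht)))
  by_contra c
  obtain ⟨l, hl⟩ := exists_pow_eq_self_of_coprime (Nat.prime_three.coprime_iff_not_dvd.2 c)
  have u1 : (s * t) b = a := by rw [mul_apply, t3 b b2, s2]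
  have u3 : ((s * t) ^ 3) b = b := by
    rw [pow_succ, pow_succ, pow_one, mul_apply, mul_apply, u1, mul_apply s t a, t1, s3 d d2,
      mul_apply, t2, s1]
  have := pow_apply_eq_self_of_apply_eq_self u3 l
  rw [hl, u1] at this
  exact ab this

theorem WH.two (h : WH π H) {p q : ℕ} (hp : p.Prime) (hpπ : p ∈ π) (h2 : p ≠ 2) (hq : q.Prime)
    (hqπ : q ∈ π) (hpq : p < q) (hn : q ≤ Fintype.card α) : 2 ∈ π := by
  classical
  have p2 := hp.two_le
  obtain ⟨X, h1, h3, h4⟩ := h.exists_X hq hqπ (by omega) hn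
  obtain ⟨c0, hc0, c1, c2, c3⟩ := h.cycle h1 hp hpπ h2 (by omega)
  obtain ⟨g, hg, e, hne⟩ := h4 _ c3 (by omega) (by omega)
  let P : Perm α × Perm α → Prop := fun z => (z.1 ∈ H ∧ z.1.IsCycle ∧ z.1.support.card = p) ∧
    (z.2 ∈ H ∧ z.2.IsCycle ∧ z.2.support.card = p) ∧ z.1.support ≠ z.2.support ∧
      (z.1.support ∩ z.2.support).Nonempty
  have cj : ∀ g ∈ H, ∀ c : Perm α, (c ∈ H ∧ c.IsCycle ∧ c.support.card = p) →
      (g * c * g⁻¹ ∈ H ∧ (g * c * g⁻¹).IsCycle ∧ (g * c * g⁻¹).support.card = p) :=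
    fun g hg c hc => ⟨mul_mem (mul_mem hg hc.1) (inv_mem hg), hc.2.1.conj,
      by rw [card_support_conj, hc.2.2]⟩
  have sj : ∀ g c : Perm α, (g * c * g⁻¹).support = c.support.image g := fun g c => by
    rw [support_conj, Finset.map_eq_image]; rfl
  obtain ⟨⟨c, d⟩, hz, hmax⟩ := Finset.exists_max_image (Finset.univ.filter P)
    (fun z => (z.1.support ∩ z.2.support).card) ⟨(c0, g * c0 * g⁻¹), Finset.mem_filter.2
      ⟨Finset.mem_univ _, ⟨hc0, c1, c2⟩, cj g hg c0 ⟨hc0, c1, c2⟩, by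
        show _ ≠ (g * c0 * g⁻¹).support
        rw [sj]; exact e.symm, by
        show (_ ∩ (g * c0 * g⁻¹).support).Nonempty
        rwa [sj]⟩⟩
  obtain ⟨hc, hd, cd, x, hx⟩ := (Finset.mem_filter.1 hz).2
  simp only at hc hd cd hx hmax
  set I := c.support ∩ d.support with hI
  obtain ⟨w, w1, w2⟩ := exists_diff (hd.2.2.trans hc.2.2.symm) cd.symm
  have j1 : (d.support \ c.support).card + I.card = p := by
    rw [hI, Finset.inter_comm, Finset.card_sdiff_add_card_inter, hd.2.2]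
  have j0 : 0 < (d.support \ c.support).card := Finset.card_pos.2 ⟨w, Finset.mem_sdiff.2 ⟨w1, w2⟩⟩
  have bd : ∀ k ∈ Finset.Ico 1 p, (d.support \ c.support).card +
      (I.filter fun y => (c ^ k) y ∈ I).card ≤ I.card := fun k hk => by
    obtain ⟨k1, k2⟩ := Finset.mem_Ico.1 hk
    have fx : ∀ y ∈ d.support \ c.support, y ∈ d.support.image (c ^ k : Perm α) := fun y hy =>
      Finset.mem_image.2 ⟨y, (Finset.mem_sdiff.1 hy).1, pow_apply_eq_self_of_apply_eq_self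
        (notMem_support.1 (Finset.mem_sdiff.1 hy).2) k⟩
    refine le_trans ?_ (hmax (c ^ k * d * (c ^ k)⁻¹, d) (Finset.mem_filter.2
      ⟨Finset.mem_univ _, cj _ (pow_mem hc.1 k) d hd, hd, ?_, w, ?_⟩))
    · show _ ≤ ((c ^ k * d * (c ^ k)⁻¹).support ∩ d.support).card
      rw [sj, ← Finset.card_image_of_injective (I.filter _) (c ^ k).injective,
        ← Finset.card_union_of_disjoint]
      · refine Finset.card_le_card (Finset.union_subset (fun y hy =>
          Finset.mem_inter.2 ⟨fx y hy, (Finset.mem_sdiff.1 hy).1⟩) fun y hy => ?_)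
        obtain ⟨z, hz, rfl⟩ := Finset.mem_image.1 hy
        obtain ⟨z1, z2⟩ := Finset.mem_filter.1 hz
        exact Finset.mem_inter.2 ⟨Finset.mem_image_of_mem _ (Finset.mem_inter.1 z1).2,
          (Finset.mem_inter.1 z2).2⟩
      · refine Finset.disjoint_left.2 fun y hy hy' => ?_
        obtain ⟨z, hz, rfl⟩ := Finset.mem_image.1 hy'
        exact (Finset.mem_sdiff.1 hy).2 (Finset.mem_inter.1 (Finset.mem_filter.1 hz).2).1
    · show (c ^ k * d * (c ^ k)⁻¹).support ≠ _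
      rw [sj]
      intro e'
      have := supp_sub hc.2.1 (hc.2.2 ▸ hp) (k := k) (pow_ne_one_of_lt_orderOf (by omega)
        (by rwa [hc.2.1.orderOf, hc.2.2])) (Finset.mem_inter.1 hx).2 (Finset.mem_inter.1 hx).1
        fun y hy => e' ▸ Finset.mem_image_of_mem _ hy
      exact cd (Finset.eq_of_subset_of_card_le this (hd.2.2.trans hc.2.2.symm).le)
    · show w ∈ (c ^ k * d * (c ^ k)⁻¹).support ∩ d.support
      rw [sj]
      exact Finset.mem_inter.2 ⟨fx w (Finset.mem_sdiff.2 ⟨w1, w2⟩), w1⟩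
  have cnt : I.offDiag.card ≤ (p - 1) * (I.card - (d.support \ c.support).card) := by
    refine (Finset.card_le_card (t := (Finset.Ico 1 p).biUnion fun k =>
      (I.filter fun y => (c ^ k) y ∈ I).image fun y => (y, (c ^ k) y)) ?_).trans
      (Finset.card_biUnion_le.trans ((Finset.sum_le_card_nsmul _ _ _ fun k hk =>
        Finset.card_image_le.trans (Nat.le_sub_of_add_le' (bd k hk))).trans (by simp)))
    rintro ⟨y, z⟩ hyz
    obtain ⟨y1, z1, yz⟩ := Finset.mem_offDiag.1 hyz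
    obtain ⟨k, hk⟩ := hc.2.1.exists_pow_eq (mem_support.1 (Finset.mem_inter.1 y1).1)
      (mem_support.1 (Finset.mem_inter.1 z1).1)
    rw [← pow_mod_orderOf, hc.2.1.orderOf, hc.2.2] at hk
    refine Finset.mem_biUnion.2 ⟨k % p, Finset.mem_Ico.2 ⟨Nat.pos_of_ne_zero fun e' => yz ?_,
      Nat.mod_lt _ hp.pos⟩, Finset.mem_image.2 ⟨y, Finset.mem_filter.2 ⟨y1, hk ▸ z1⟩, by rw [hk]⟩⟩
    rwa [e', pow_zero, one_apply] at hk
  have j2 : (d.support \ c.support).card = 1 := by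
    have b1 := bd 1 (Finset.mem_Ico.2 ⟨le_rfl, p2⟩)
    rw [Finset.offDiag_card] at cnt
    generalize (d.support \ c.support).card = j at *
    obtain ⟨v, hv⟩ : ∃ v, I.card = j + v := ⟨I.card - j, by omega⟩
    obtain ⟨j, rfl⟩ : ∃ j', j = j' + 1 := ⟨j - 1, by omega⟩
    rw [hv, Nat.add_sub_cancel_left, show p - 1 = 2 * j + 1 + v by omega] at cnt
    have := Nat.le_add_of_sub_le cnt
    nlinarith
  let K : Subgroup (Perm α) := closure {c, d}
  have hK : K ≤ H := (closure_le _).2 (by rintro _ (rfl | rfl); exacts [hc.1, hd.1])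
  have hK2 : K ≤ Fx (d.support ∪ c.support) := (closure_le _).2 (by
    rintro _ (rfl | rfl)
    exacts [mem_Fx.2 Finset.subset_union_right, mem_Fx.2 Finset.subset_union_left])
  have ho : orb K x = d.support ∪ c.support := by
    refine Finset.Subset.antisymm (fun y hy => ?_) (Finset.union_subset (fun y hy => ?_) fun y hy => ?_)
    · obtain ⟨k, hk, rfl⟩ := mem_orb.1 hy
      exact fx_iv _ k (hK2 hk) x (Finset.mem_union_left _ (Finset.mem_inter.1 hx).2)
    · obtain ⟨k, hk⟩ := hd.2.1.exists_pow_eq (mem_support.1 (Finset.mem_inter.1 hx).2)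
        (mem_support.1 hy)
      exact mem_orb.2 ⟨_, pow_mem (subset_closure (by simp)) k, hk⟩
    · obtain ⟨k, hk⟩ := hc.2.1.exists_pow_eq (mem_support.1 (Finset.mem_inter.1 hx).1)
        (mem_support.1 hy)
      exact mem_orb.2 ⟨_, pow_mem (subset_closure (by simp)) k, hk⟩
  refine h.1 2 Nat.prime_two (Dvd.dvd.trans ?_ ((index_dvd_card (MulAction.stabilizer K x)).trans
    (card_dvd_of_le hK)))
  rw [← card_orb, ho, ← Finset.card_sdiff_add_card, j2, hc.2.2]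
  exact (odd_one.add_odd (hp.odd_of_ne_two h2)).two_dvd

theorem WH.two_three (h : WH π H) (h2 : ∃ r s : ℕ, r.Prime ∧ s.Prime ∧ r ≠ s ∧ r ∈ π ∧ s ∈ π ∧
    r ≤ Fintype.card α ∧ s ≤ Fintype.card α) : 2 ∈ π ∧ 3 ∈ π := by
  obtain ⟨p, q, hp, hq, e, hpπ, hqπ, hn⟩ : ∃ p q : ℕ, p.Prime ∧ q.Prime ∧ p < q ∧ p ∈ π ∧ q ∈ π ∧
      q ≤ Fintype.card α := by
    obtain ⟨r, s, h1, h2, h3, h4, h5, h6, h7⟩ := h2
    rcases lt_or_gt_of_ne h3 with c | c
    exacts [⟨r, s, h1, h2, c, h4, h5, h7⟩, ⟨s, r, h2, h1, c, h5, h4, h6⟩]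
  have a : 2 ∈ π := by
    by_cases c : p = 2
    · exact c ▸ hpπ
    · exact h.two hp hpπ c hq hqπ e hn
  refine ⟨a, ?_⟩
  have := hp.two_le
  by_cases c : q = 3
  · exact c ▸ hqπ
  · exact h.three a hq hqπ (hq.five_le_of_ne_two_of_ne_three (by omega) c) hn

end Cfsg.Agent.HallSym
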