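import Mathlib
import Cfsg.Agent.HallSym.Basic

/-! Orders of stabilizers of families of disjoint sets. -/

set_option autoImplicit false

namespace Cfsg.Agent.HallSym

open Cfsg Cfsg.Agent.Core Subgroup Equiv Equiv.Perm Nat
open scoped Pointwise

variable {α : Type*} [Fintype α] [DecidableEq α] {π : Set ℕ} {H : Subgroup (Perm α)}

theorem index_eq_relIndex {M : Subgroup (Perm α)} {x y : α} (e : x ≠ y) (hs : swap x y ∈ M) :
    M.index = M.relIndex (alternatingGroup α) := by
  haveI : Nontrivial α := ⟨x, y, e⟩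
  have h1 := relIndex_mul_index (inf_le_left : M ⊓ alternatingGroup α ≤ M)
  have h2 := relIndex_mul_index (inf_le_right : M ⊓ alternatingGroup α ≤ _)
  rw [inf_relIndex_left] at h1
  rw [inf_relIndex_right, alternatingGroup.index_eq_two] at h2
  have h3 := relIndex_dvd_index_of_normal (alternatingGroup α) M
  rw [alternatingGroup.index_eq_two, Nat.dvd_prime Nat.prime_two] at h3
  rcases h3 with h3 | h3
  · have := mem_alternatingGroup.1 (relIndex_eq_one.1 h3 hs)
    rw [sign_swap e] at this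
    cases this
  · rw [h3, ← h2] at h1; omega

theorem WH.idx (h : WH π H) {M : Subgroup (Perm α)} (hM : H ≤ M) {x y : α} (e : x ≠ y)
    (hs : swap x y ∈ M) {r : ℕ} (hr : r.Prime) (hπ : r ∈ π) : ¬ r ∣ M.index := fun c =>
  h.2 r hr hπ ((index_eq_relIndex e hs ▸ c).trans (relIndex_dvd_of_le_left _ hM))

theorem smul_eq_of_iv {g : Perm α} {C : Finset α} (h : ∀ x ∈ C, g x ∈ C) : g • C = C := by
  refine Finset.eq_of_subset_of_card_le (fun y hy => ?_) (Finset.card_smul_finset g C).ge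
  obtain ⟨x, hx, rfl⟩ := Finset.mem_smul_finset.1 hy
  exact h x hx

theorem smul_cpl (g : Perm α) (C : Finset α) : g • Cᶜ = (g • C)ᶜ := by
  rw [Finset.compl_eq_univ_sdiff, Finset.smul_finset_sdiff, Finset.smul_finset_univ,
    Finset.compl_eq_univ_sdiff]

theorem Iv.compl {S : Finset α} (h : Iv H S) : Iv H Sᶜ := fun g hg x hx =>
  Finset.mem_compl.2 fun c => Finset.mem_compl.1 hx (by simpa using h g⁻¹ (inv_mem hg) _ c)

/-- pairwise disjoint family -/
def Dj (B : Finset (Finset α)) : Prop := ∀ C ∈ B, ∀ D ∈ B, ∀ x ∈ C, x ∈ D → C = D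

/-- the permutations fixing each member of `B` -/
def Y (B : Finset (Finset α)) : Subgroup (Perm α) := ⨅ C ∈ B, MulAction.stabilizer (Perm α) C

/-- the permutations permuting the members of `B` -/
def W (B : Finset (Finset α)) : Subgroup (Perm α) := MulAction.stabilizer (Perm α) B

variable {B : Finset (Finset α)}

theorem mem_Y {g : Perm α} : g ∈ Y B ↔ ∀ C ∈ B, g • C = C := by simp [Y, mem_iInf]

theorem mem_W {g : Perm α} : g ∈ W B ↔ ∀ C ∈ B, g • C ∈ B := by
  refine ⟨fun h C hC => (show g • B = B from h) ▸ Finset.smul_mem_smul_finset hC, fun h => ?_⟩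
  refine Finset.eq_of_subset_of_card_le (fun y hy => ?_) (Finset.card_smul_finset g B).ge
  obtain ⟨x, hx, rfl⟩ := Finset.mem_smul_finset.1 hy
  exact h x hx

theorem Y_le_W : Y B ≤ W B := fun g hg => mem_W.2 fun C hC => by rwa [mem_Y.1 hg C hC]

theorem swap_mem_Y (hd : Dj B) {C : Finset α} (hC : C ∈ B) {x y : α} (hx : x ∈ C) (hy : y ∈ C) :
    swap x y ∈ Y B := mem_Y.2 fun D hD => smul_eq_of_iv fun z hz => by
  rw [swap_apply_def]
  split_ifs with h1 h2
  · exact hd C hC D hD x hx (h1 ▸ hz) ▸ hy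
  · exact hd C hC D hD y hy (h2 ▸ hz) ▸ hx
  · exact hz

theorem card_Y (hd : Dj B) :
    Nat.card (Y B) = (∏ C ∈ B, C.card !) * ((B.biUnion id)ᶜ.card)! := by
  classical
  let f : α → Option B := fun x => if h : ∃ C ∈ B, x ∈ C then some ⟨h.choose, h.choose_spec.1⟩ else none
  have f1 : ∀ x (C : B), f x = some C ↔ x ∈ C.1 := fun x C => by
    simp only [f]
    split_ifs with h
    · rw [Option.some_inj, Subtype.ext_iff]
      exact ⟨fun e => e ▸ h.choose_spec.2, hd _ h.choose_spec.1 _ C.2 x h.choose_spec.2⟩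
    · exact ⟨fun e => (by cases e), fun e => (h ⟨_, C.2, e⟩).elim⟩
  have f2 : ∀ x, f x = none ↔ x ∈ (B.biUnion id)ᶜ := fun x => by
    simp only [f, Finset.mem_compl, Finset.mem_biUnion, id]
    split_ifs with h <;> simp [h]
  have h1 := DomMulAct.stabilizer_card f
  rw [Fintype.prod_option, ← Nat.card_eq_fintype_card, mul_comm] at h1
  simp only [f1, f2, Fintype.card_coe] at h1
  rw [Finset.prod_coe_sort B fun C => C.card !] at h1
  rw [← h1]
  refine Nat.card_congr (Equiv.subtypeEquivRight fun g => mem_Y.trans ⟨fun h => funext fun x => ?_,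
    fun h C hC => smul_eq_of_iv fun x hx => (f1 _ ⟨C, hC⟩).1 ((congrFun h x).trans
      ((f1 _ ⟨C, hC⟩).2 hx))⟩)
  refine Option.ext fun C => ?_
  show f (g x) = some C ↔ f x = some C
  rw [f1, f1]
  conv_lhs => rw [← h C C.2]
  exact Finset.smul_mem_smul_finset_iff g

theorem card_W (hd : Dj B) :
    Nat.card (W B) ∣ B.card ! * ((∏ C ∈ B, C.card !) * ((B.biUnion id)ᶜ.card)!) := by
  let T : SubMulAction (W B) (Finset α) := ⟨(B : Set (Finset α)), fun g {C} hC => mem_W.1 g.2 C hC⟩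
  have hT : Nat.card T = B.card := by
    exact (Nat.card_coe_set_eq (B : Set (Finset α))).trans (Set.ncard_coe_finset B)
  haveI : Finite T := B.finite_toSet.to_subtype
  have h1 : (MulAction.toPermHom (W B) T).ker ≤ (Y B).subgroupOf (W B) := fun g hg =>
    mem_Y.2 fun C hC => congrArg Subtype.val (congrArg (fun σ : Perm T => σ ⟨C, hC⟩) hg)
  have h2 := index_dvd_of_le h1
  rw [index_ker] at h2
  have h3 := h2.trans (card_subgroup_dvd_card _)
  rw [Nat.card_perm, hT] at h3
  rw [← card_Y hd, ← ((Y B).subgroupOf (W B)).index_mul_card,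
    Nat.card_congr (subgroupOfEquivOfLe Y_le_W).toEquiv]
  exact mul_dvd_mul_right h3 _

theorem card_bi (hd : Dj B) : (B.biUnion id).card = ∑ C ∈ B, C.card :=
  Finset.card_biUnion fun C hC D hD e => Finset.disjoint_left.2 fun x h1 h2 => e (hd C hC D hD x h1 h2)

theorem dvd_index {M : Subgroup (Perm α)} {U : Finset α} {D E : ℕ}
    (h1 : Nat.card M ∣ D * (Uᶜ.card)!) (h2 : E * D = U.card !) : E ∣ M.index := by
  obtain ⟨t, ht⟩ := h1
  have h3 := M.card_mul_index
  rw [Nat.card_perm, Nat.card_eq_fintype_card (α := α), ← Finset.card_add_card_compl U,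
    ← Nat.add_choose_mul_factorial_mul_factorial, ← h2, mul_assoc, mul_assoc, ht] at h3
  refine ⟨(U.card + Uᶜ.card).choose Uᶜ.card * t, Nat.eq_of_mul_eq_mul_left
    (Nat.card_pos (α := M)) ?_⟩
  rw [h3]; ring

theorem dj_pair {S T : Finset α} (h : Disjoint S T) : Dj {S, T} := by
  intro C hC D hD x h1 h2
  rw [Finset.disjoint_left] at h
  simp only [Finset.mem_insert, Finset.mem_singleton] at hC hD
  rcases hC with rfl | rfl <;> rcases hD with rfl | rfl
  exacts [rfl, (h h1 h2).elim, (h h2 h1).elim, rfl]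

theorem WH.K1 (h : WH π H) {S : Finset α} (hS : Iv H S) {T : Finset α} (hT : Iv H T)
    (hd : Disjoint S T) (h2 : 2 ≤ S.card) {r : ℕ} (hr : r.Prime) (hπ : r ∈ π) :
    ¬ r ∣ (S.card + T.card).choose T.card := fun c => by
  obtain ⟨x, hx, y, hy, e⟩ := Finset.one_lt_card.1 h2
  have ne : S ≠ T := fun e' => Finset.disjoint_left.1 hd hx (e' ▸ hx)
  refine h.idx (M := Y {S, T}) (fun g hg => mem_Y.2 ?_) e
    (swap_mem_Y (dj_pair hd) (Finset.mem_insert_self _ _) hx hy) hr hπ (c.trans ?_)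
  · simp only [Finset.mem_insert, Finset.mem_singleton, forall_eq_or_imp, forall_eq]
    exact ⟨smul_eq_of_iv (hS g hg), smul_eq_of_iv (hT g hg)⟩
  · refine dvd_index (card_Y (dj_pair hd)).dvd ?_
    rw [card_bi (dj_pair hd), Finset.sum_pair ne, Finset.prod_pair ne, ← mul_assoc,
      Nat.add_choose_mul_factorial_mul_factorial]

theorem WH.K2 (h : WH π H) (hd : Dj B) (hB : H ≤ W B) {a : ℕ} (ha : ∀ C ∈ B, C.card = a)
    (h2 : 2 ≤ a) {p : ℕ} (hp : p < B.card) {r : ℕ} (hr : r.Prime) (hπ : r ∈ π) :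
    ¬ r ∣ (p * a + a - 1).choose (a - 1) := fun c => by
  obtain ⟨C, hC⟩ : B.Nonempty := Finset.card_pos.1 (by omega)
  obtain ⟨x, hx, y, hy, e⟩ := Finset.one_lt_card.1 (show 1 < C.card by rw [ha C hC]; omega)
  refine h.idx hB e (Y_le_W (swap_mem_Y hd hC hx hy)) hr hπ (c.trans (Dvd.dvd.trans ?_
    (dvd_index (E := uniformBell B.card a) ((card_W hd).trans (mul_assoc _ _ _).symm.dvd) ?_)))
  · rw [uniformBell_eq]
    exact Finset.dvd_prod_of_mem (fun p => (p * a + a - 1).choose (a - 1)) (Finset.mem_range.2 hp)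
  · rw [card_bi hd, Finset.sum_congr rfl ha, Finset.prod_congr rfl fun C hC => by rw [ha C hC],
      Finset.sum_const, Finset.prod_const, smul_eq_mul, ← uniformBell_mul_eq _ (by omega)]
    ring

end Cfsg.Agent.HallSym
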