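import Mathlib

/-! A weak form of Ecklund's theorem: if `a > m ≥ 2` and no prime `r ≤ a` divides `C(a+m, m)`,
then `(a, m) = (4, 3)`. -/

set_option autoImplicit false

namespace Cfsg.Agent.HallSym

open Nat Finset

/-- no carry in any base `r ≤ a` -/
def NC (a m : ℕ) : Prop := ∀ r, r.Prime → r ≤ a → ∀ f, 1 ≤ f → m % r ^ f + a % r ^ f < r ^ f

theorem nc_of {a m : ℕ} (h : ∀ r, r.Prime → r ≤ a → ¬ r ∣ (a + m).choose m) : NC a m := by
  intro r hr hra f hf
  have h1 := Nat.factorization_choose' (n := a) (k := m) (b := f + 1 + Nat.log r (a + m)) hr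
    (by omega)
  rw [Nat.factorization_eq_zero_of_not_dvd (h r hr hra)] at h1
  by_contra hc
  have h2 : f < f + 1 + Nat.log r (a + m) := by omega
  refine absurd h1.symm (Finset.card_ne_zero.2 ⟨f, ?_⟩)
  exact Finset.mem_filter.2 ⟨Finset.mem_Ico.2 ⟨hf, h2⟩, not_lt.1 hc⟩

theorem fact_dvd {x y z u v w : ℕ} (h : ∀ r, r.Prime → ∀ f, 1 ≤ f →
    x / r ^ f + y / r ^ f + z / r ^ f ≤ u / r ^ f + v / r ^ f + w / r ^ f) :
    x ! * y ! * z ! ∣ u ! * v ! * w ! := by
  refine (Nat.factorization_prime_le_iff_dvd (by positivity) (by positivity)).1 fun r hr => ?_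
  have k : ∀ n, n ≤ x + y + z + u + v + w → (n !).factorization r =
      ∑ i ∈ Ico 1 (x + y + z + u + v + w + 1), n / r ^ i := fun n hn =>
    Nat.factorization_factorial hr (lt_of_le_of_lt (Nat.log_le_self _ _) (by omega))
  rw [Nat.factorization_mul (by positivity) (by positivity),
    Nat.factorization_mul (by positivity) (by positivity),
    Nat.factorization_mul (by positivity) (by positivity),
    Nat.factorization_mul (by positivity) (by positivity)]
  simp only [Finsupp.add_apply]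
  rw [k x (by omega), k y (by omega), k z (by omega), k u (by omega), k v (by omega),
    k w (by omega), ← sum_add_distrib, ← sum_add_distrib, ← sum_add_distrib, ← sum_add_distrib]
  exact sum_le_sum fun i hi => h r hr i (mem_Ico.1 hi).1

theorem div_of {Q n q ρ : ℕ} (h : n = Q * q + ρ) (hρ : ρ < Q) : n / Q = q ∧ n % Q = ρ := by
  subst h
  exact ⟨by rw [Nat.mul_add_div (by omega), Nat.div_eq_of_lt hρ, add_zero],
    by rw [Nat.mul_add_mod, Nat.mod_eq_of_lt hρ]⟩

theorem half_term {Q a m : ℕ} (hQ : 0 < Q) (h : m % Q + a % Q < Q) :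
    (a / 2 + m / 2) / Q + (m / 2) / Q + 0 / Q ≤ m / Q + (a / 2) / Q + 0 / Q := by
  obtain ⟨A, α, hα, e1⟩ : ∃ A α, α < Q ∧ a / 2 = Q * A + α :=
    ⟨_, _, Nat.mod_lt _ hQ, (Nat.div_add_mod _ _).symm⟩
  obtain ⟨M, μ, hμ, e2⟩ : ∃ M μ, μ < Q ∧ m / 2 = Q * M + μ :=
    ⟨_, _, Nat.mod_lt _ hQ, (Nat.div_add_mod _ _).symm⟩
  rw [(div_of e1 hα).1, (div_of e2 hμ).1]
  have l1 : 2 * M ≤ m / Q := (Nat.le_div_iff_mul_le hQ).2 (by nlinarith [Nat.div_mul_le_self m 2])
  by_cases c : α + μ < Q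
  · rw [(div_of (n := a / 2 + m / 2) (q := A + M) (ρ := α + μ) (by rw [e1, e2]; ring) c).1]
    omega
  rw [(div_of (n := a / 2 + m / 2) (q := A + M + 1) (ρ := α + μ - Q)
    (by rw [e1, e2, mul_add, mul_add]; omega) (by omega)).1]
  by_cases d : 2 * μ + m % 2 < Q
  · exfalso
    rw [(div_of (n := m) (q := 2 * M) (ρ := 2 * μ + m % 2)
      (by rw [mul_left_comm]; omega) d).2,
      (div_of (n := a) (q := 2 * A + 1) (ρ := 2 * α + a % 2 - Q)
      (by rw [mul_add, mul_left_comm]; omega) (by omega)).2] at h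
    omega
  · have : 2 * M + 1 ≤ m / Q := (Nat.le_div_iff_mul_le hQ).2 (by
      rw [add_mul, mul_assoc, mul_comm M Q]; omega)
    omega

theorem half_le {a m : ℕ} (hm : m < a) (h : NC a m) :
    (a / 2 + m / 2).choose (m / 2) * (m / 2)! * (m / 2)! ≤ m ! := by
  have h1 : (a / 2 + m / 2)! * (m / 2)! * 0 ! ∣ m ! * (a / 2)! * 0 ! := by
    refine fact_dvd fun r hr f hf => ?_
    by_cases c : r ≤ a
    · exact half_term (pow_pos hr.pos _) (h r hr c f hf)
    · have : r ≤ r ^ f := Nat.le_self_pow (by omega) _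
      rw [Nat.div_eq_of_lt (show a / 2 + m / 2 < r ^ f by omega),
        Nat.div_eq_of_lt (show m / 2 < r ^ f by omega), Nat.zero_div]
      exact Nat.zero_le _
  rw [← Nat.add_choose_mul_factorial_mul_factorial, factorial_zero, mul_one, mul_one] at h1
  refine Nat.le_of_mul_le_mul_right ?_ (factorial_pos (a / 2))
  calc _ = (a / 2 + m / 2).choose (m / 2) * (a / 2)! * (m / 2)! * (m / 2)! := by ring
    _ ≤ _ := Nat.le_of_dvd (by positivity) h1

theorem six_term {Q a m t : ℕ} (hQ : 0 < Q) (h : m % Q + a % Q < Q) (h1 : 6 * t ≤ m) (h2 : m < a) :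
    (4 * t) / Q + t / Q + (6 * t) / Q ≤ (3 * t) / Q + (2 * t) / Q + a / Q := by
  obtain ⟨T, τ, hτ, e⟩ : ∃ T τ, τ < Q ∧ t = Q * T + τ :=
    ⟨_, _, Nat.mod_lt _ hQ, (Nat.div_add_mod _ _).symm⟩
  have k : ∀ c, (c * t) / Q = c * T + (c * τ) / Q := fun c => by
    rw [e, mul_add, mul_left_comm, Nat.mul_add_div hQ]
  have k1 := k 1
  rw [one_mul, one_mul, one_mul, Nat.div_eq_of_lt hτ] at k1
  have m1 : (6 * t) / Q ≤ a / Q := Nat.div_le_div_right (by omega)
  by_cases c : (4 * τ) / Q ≤ (3 * τ) / Q + (2 * τ) / Q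
  · rw [k 4, k 3, k 2, k1]; omega
  have a4 := Nat.div_add_mod (4 * τ) Q
  have a3 := Nat.div_add_mod (3 * τ) Q
  have a2 := Nat.div_add_mod (2 * τ) Q
  have b4 := Nat.mod_lt (4 * τ) hQ
  have b3 := Nat.mod_lt (3 * τ) hQ
  have b2 := Nat.mod_lt (2 * τ) hQ
  have c4 : (4 * τ) / Q < 4 := (Nat.div_lt_iff_lt_mul hQ).2 (by omega)
  have c3 : (3 * τ) / Q < 3 := (Nat.div_lt_iff_lt_mul hQ).2 (by omega)
  have c2 : (2 * τ) / Q < 2 := (Nat.div_lt_iff_lt_mul hQ).2 (by omega)
  have key : Q ≤ 4 * τ ∧ 3 * τ < Q ∧ (4 * τ) / Q = 1 := by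
    generalize (4 * τ) / Q = x4 at *
    generalize (3 * τ) / Q = x3 at *
    generalize (2 * τ) / Q = x2 at *
    interval_cases x4 <;> interval_cases x3 <;> interval_cases x2 <;> omega
  have k6 : (6 * t) / Q = 6 * T + 1 := by
    rw [k 6, (div_of (n := 6 * τ) (q := 1) (ρ := 6 * τ - Q) (by omega) (by omega)).1]
  have : 6 * T + 2 ≤ a / Q := by
    by_contra hc
    have hc := (Nat.div_lt_iff_lt_mul hQ).1 (not_le.1 hc)
    have e6 : 6 * t = Q * (6 * T + 1) + (6 * τ - Q) := by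
      rw [e, mul_add, mul_add, mul_left_comm]; omega
    have e7 : (6 * T + 2) * Q = Q * (6 * T + 1) + Q := by ring
    rw [(div_of (n := m) (q := 6 * T + 1) (ρ := m - Q * (6 * T + 1)) (by omega) (by omega)).2,
      (div_of (n := a) (q := 6 * T + 1) (ρ := a - Q * (6 * T + 1)) (by omega) (by omega)).2] at h
    omega
  rw [k 4, k 3, k 2, k1, k6, key.2.2]
  generalize (3 * τ) / Q = x3
  generalize (2 * τ) / Q = x2
  omega

theorem six_low (t : ℕ) : 2 ^ t * ((3 * t)! * (2 * t)!) ≤ (4 * t)! * t ! := by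
  induction t with
  | zero => simp
  | succ t ih =>
    have e4 : (4 * (t + 1))! = (4 * t + 4) * (4 * t + 3) * (4 * t + 2) * (4 * t + 1) * (4 * t)! := by
      rw [show 4 * (t + 1) = 4 * t + 3 + 1 by ring, factorial_succ, factorial_succ, factorial_succ,
        factorial_succ]; ring
    have e3 : (3 * (t + 1))! = (3 * t + 3) * (3 * t + 2) * (3 * t + 1) * (3 * t)! := by
      rw [show 3 * (t + 1) = 3 * t + 2 + 1 by ring, factorial_succ, factorial_succ,
        factorial_succ]; ring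
    have e2 : (2 * (t + 1))! = (2 * t + 2) * (2 * t + 1) * (2 * t)! := by
      rw [show 2 * (t + 1) = 2 * t + 1 + 1 by ring, factorial_succ, factorial_succ]; ring
    have l : 2 * ((3 * t + 3) * (3 * t + 2) * (3 * t + 1) * ((2 * t + 2) * (2 * t + 1))) ≤
        (4 * t + 4) * (4 * t + 3) * (4 * t + 2) * (4 * t + 1) * (t + 1) := by
      have : 6 * ((3 * t + 2) * (3 * t + 1)) ≤ 4 * ((4 * t + 3) * (4 * t + 1)) := by nlinarith
      calc _ = 6 * ((3 * t + 2) * (3 * t + 1)) * (2 * (t + 1) * (t + 1) * (2 * t + 1)) := by ring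
        _ ≤ 4 * ((4 * t + 3) * (4 * t + 1)) * (2 * (t + 1) * (t + 1) * (2 * t + 1)) :=
          Nat.mul_le_mul_right _ this
        _ = _ := by ring
    rw [e4, e3, e2, factorial_succ]
    calc _ = 2 * ((3 * t + 3) * (3 * t + 2) * (3 * t + 1) * ((2 * t + 2) * (2 * t + 1))) *
          (2 ^ t * ((3 * t)! * (2 * t)!)) := by ring
      _ ≤ _ := Nat.mul_le_mul l ih
      _ = _ := by ring

theorem six_le {a m : ℕ} (hm : m < a) (h : NC a m) : 2 ^ (m / 6) ≤ a ^ (a - 6 * (m / 6)) := by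
  set t := m / 6
  have ht : 6 * t ≤ m := Nat.mul_div_le m 6
  have h1 : (4 * t)! * t ! * (6 * t)! ∣ (3 * t)! * (2 * t)! * a ! := by
    refine fact_dvd fun r hr f hf => ?_
    by_cases c : r ≤ a
    · exact six_term (pow_pos hr.pos _) (h r hr c f hf) ht hm
    · have : r ≤ r ^ f := Nat.le_self_pow (by omega) _
      rw [Nat.div_eq_of_lt (show 4 * t < r ^ f by omega),
        Nat.div_eq_of_lt (show t < r ^ f by omega), Nat.div_eq_of_lt (show 6 * t < r ^ f by omega)]
      exact Nat.zero_le _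
  have h2 : a ! ≤ (6 * t)! * a ^ (a - 6 * t) := by
    have := Nat.factorial_mul_descFactorial (n := a) (k := a - 6 * t) (by omega)
    rw [show a - (a - 6 * t) = 6 * t by omega] at this
    exact this ▸ Nat.mul_le_mul_left _ (Nat.descFactorial_le_pow _ _)
  refine Nat.le_of_mul_le_mul_right ?_
    (show 0 < (3 * t)! * (2 * t)! * (6 * t)! by positivity)
  calc _ = 2 ^ t * ((3 * t)! * (2 * t)!) * (6 * t)! := by ring
    _ ≤ (4 * t)! * t ! * (6 * t)! := Nat.mul_le_mul_right _ (six_low t)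
    _ ≤ (3 * t)! * (2 * t)! * a ! := Nat.le_of_dvd (by positivity) h1
    _ ≤ (3 * t)! * (2 * t)! * ((6 * t)! * a ^ (a - 6 * t)) := Nat.mul_le_mul_left _ h2
    _ = _ := by ring

theorem grow (k s : ℕ) (hs : s ≤ k) :
    3 ^ s * (2 * k).choose k ≤ 2 ^ s * (2 * k + s).choose k := by
  induction s with
  | zero => simp
  | succ s ih =>
    have h1 := Nat.choose_mul_succ_eq (2 * k + s) k
    rw [show 2 * k + s + 1 - k = k + s + 1 by omega] at h1
    have h2 : 3 * (2 * k + s).choose k ≤ 2 * (2 * k + s + 1).choose k := by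
      refine Nat.le_of_mul_le_mul_right ?_ (show 0 < k + s + 1 by omega)
      rw [mul_assoc 2, ← h1]
      nlinarith [Nat.mul_le_mul_left ((2 * k + s).choose k)
        (show 3 * (k + s + 1) ≤ 2 * (2 * k + s + 1) by omega)]
    calc _ = 3 * (3 ^ s * (2 * k).choose k) := by ring
      _ ≤ 3 * (2 ^ s * (2 * k + s).choose k) := Nat.mul_le_mul_left _ (ih (by omega))
      _ = 2 ^ s * (3 * (2 * k + s).choose k) := by ring
      _ ≤ 2 ^ s * (2 * (2 * k + s + 1).choose k) := Nat.mul_le_mul_left _ h2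
      _ = _ := by rw [← add_assoc]; ring

theorem small_s : ∀ k < 64, 0 < k →
    (2 * k + 1) * (2 * k).descFactorial k < (2 * k + 10).descFactorial k := by
  decide +kernel

/-- prime powers used in the direct check -/
def pl : List (ℕ × ℕ) := [(2, 1), (2, 2), (2, 3), (2, 4), (2, 5), (2, 6), (2, 7), (2, 8), (3, 1),
  (3, 2), (3, 3), (3, 4), (5, 1), (5, 2), (7, 1), (11, 1), (13, 1), (17, 1), (19, 1), (37, 1),
  (41, 1), (71, 1), (79, 1)]

theorem small_check : ∀ m < 128, ∀ d < 20, 2 ≤ m → (m + d + 1 = 4 ∧ m = 3) ∨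
    ∃ x ∈ pl, x.1 ≤ m + d + 1 ∧ x.1 ^ x.2 ≤ m % x.1 ^ x.2 + (m + d + 1) % x.1 ^ x.2 := by
  decide +kernel

theorem pl_prime : ∀ x ∈ pl, x.1.Prime ∧ 1 ≤ x.2 := by
  simp only [pl, List.mem_cons, List.not_mem_nil, or_false, forall_eq_or_imp, forall_eq]
  norm_num

theorem two_pow_ge (e : ℕ) (he : 13 ≤ e) : 24 * e ^ 2 + 58 * e + 40 < 2 ^ e := by
  induction e, he using Nat.le_induction with
  | base => norm_num
  | succ e he ih => rw [pow_succ 2]; nlinarith

theorem lin_le (e : ℕ) (he : 8 ≤ e) : 8 * e ≤ 2 ^ (e - 1) := by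
  induction e, he using Nat.le_induction with
  | base => norm_num
  | succ e he ih =>
    rw [show e + 1 - 1 = e - 1 + 1 by omega, pow_succ]; omega

theorem eck {a m : ℕ} (hm : m < a) (h2 : 2 ≤ m)
    (h : ∀ r, r.Prime → r ≤ a → ¬ r ∣ (a + m).choose m) : a = 4 ∧ m = 3 := by
  have nc := nc_of h
  obtain ⟨e, e1, e2⟩ : ∃ e, 2 ^ e ≤ a ∧ a < 2 ^ (e + 1) :=
    ⟨Nat.log 2 a, Nat.pow_log_le_self 2 (by omega), Nat.lt_pow_succ_log_self (by norm_num) a⟩
  have e3 := nc 2 Nat.prime_two (by omega) (e + 1) (by omega)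
  rw [Nat.mod_eq_of_lt e2, Nat.mod_eq_of_lt (hm.trans e2), pow_succ] at e3
  rw [pow_succ] at e2
  have e4 := nc 2 Nat.prime_two (by omega) 1 le_rfl
  rw [pow_one] at e4
  have hl := half_le hm nc
  obtain ⟨k, hk | hk⟩ := Nat.even_or_odd' m
  · exfalso
    have hk2 : m / 2 = k := by omega
    rw [hk2, hk, two_mul, ← Nat.add_choose_mul_factorial_mul_factorial k k] at hl
    have h3 := Nat.le_of_mul_le_mul_right (Nat.le_of_mul_le_mul_right hl (factorial_pos _))
      (factorial_pos _)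
    have h4 : a / 2 ≤ k := by
      by_contra hc
      have h5 := Nat.choose_le_choose k (show k + k + 1 ≤ a / 2 + k by omega)
      obtain ⟨j, rfl⟩ : ∃ j, k = j + 1 := ⟨k - 1, by omega⟩
      rw [Nat.choose_succ_succ' (j + 1 + (j + 1)) j] at h5
      have := Nat.choose_pos (show j ≤ j + 1 + (j + 1) by omega)
      omega
    obtain ⟨j, rfl⟩ : ∃ j, e = j + 1 := ⟨e - 1, by
      rcases e with _ | e
      · simp at e2; omega
      · rfl⟩
    rw [pow_succ] at e1 e2 e3
    omega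
  have hk2 : m / 2 = k := by omega
  obtain ⟨s, hs⟩ : ∃ s, a = 2 * (k + s) := ⟨a / 2 - k, by omega⟩
  have h3 : (2 * k + s).choose k ≤ (2 * k + 1) * (2 * k).choose k := by
    rw [hk2, hk, factorial_succ, two_mul, ← Nat.add_choose_mul_factorial_mul_factorial k k,
      show a / 2 + k = k + k + s by omega, ← two_mul, ← mul_assoc, ← mul_assoc] at hl
    exact Nat.le_of_mul_le_mul_right (Nat.le_of_mul_le_mul_right hl (factorial_pos _))
      (factorial_pos _)
  by_cases c : m < 128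
  · have h4 : s < 10 := by
      by_contra hc
      have h5 := small_s k (by omega) (by omega)
      rw [Nat.descFactorial_eq_factorial_mul_choose, Nat.descFactorial_eq_factorial_mul_choose,
        mul_left_comm] at h5
      have h6 := Nat.choose_le_choose k (show 2 * k + 10 ≤ 2 * k + s by omega)
      have := lt_of_mul_lt_mul_left h5 (Nat.zero_le _)
      omega
    rcases small_check m c (a - m - 1) (by omega) h2 with h5 | ⟨x, hx, h5, h6⟩
    · omega
    · rw [show m + (a - m - 1) + 1 = a by omega] at h5 h6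
      exact absurd (nc _ (pl_prime x hx).1 h5 _ (pl_prime x hx).2) (not_lt.2 h6)
  exfalso
  obtain ⟨g, g1, g2⟩ : ∃ g, 2 ^ g ≤ m ∧ m < 2 ^ (g + 1) :=
    ⟨Nat.log 2 m, Nat.pow_log_le_self 2 (by omega), Nat.lt_pow_succ_log_self (by norm_num) m⟩
  have g3 : 7 ≤ g := by
    by_contra hc
    have := Nat.pow_le_pow_right (show 0 < 2 by norm_num) (show g + 1 ≤ 7 by omega)
    omega
  have g4 : g < e := (Nat.pow_lt_pow_iff_right (show 1 < 2 by norm_num)).1 (by omega)
  have g5 := lin_le (g + 1) (by omega)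
  rw [Nat.add_sub_cancel] at g5
  have h4 : s < 2 * (g + 1) := by
    by_contra hc
    have h5 := grow k (2 * (g + 1)) (by omega)
    have h6 := Nat.choose_le_choose k (show 2 * k + 2 * (g + 1) ≤ 2 * k + s by omega)
    have h7 : 3 ^ (2 * (g + 1)) ≤ 2 ^ (2 * (g + 1)) * (2 * k + 1) := by
      refine Nat.le_of_mul_le_mul_right ?_ (Nat.choose_pos (show k ≤ 2 * k by omega))
      rw [mul_assoc]
      exact h5.trans (Nat.mul_le_mul_left _ (h6.trans h3))
    have h8 : 2 ^ (2 * (g + 1)) * (2 * k + 1) < 2 ^ (2 * (g + 1)) * 2 ^ (g + 1) :=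
      mul_lt_mul_of_pos_left (by omega) (by positivity)
    rw [pow_mul, pow_mul] at h7
    rw [pow_mul, ← mul_pow] at h8
    have := Nat.pow_le_pow_left (show 2 ^ 2 * 2 ≤ 3 ^ 2 by norm_num) (g + 1)
    omega
  have pr : ∀ r, r.Prime → a < 2 * r → 3 * r ≤ a + m → False := fun r hr r1 r2 => by
    have := nc r hr (by omega) 1 le_rfl
    rw [pow_one, (div_of (n := m) (q := 1) (ρ := m - r) (by omega) (by omega)).2,
      (div_of (n := a) (q := 1) (ρ := a - r) (by omega) (by omega)).2] at this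
    omega
  by_cases c2 : e < 13
  · have : 8 ≤ e := by omega
    interval_cases e
    · exact pr 149 (by norm_num) (by omega) (by omega)
    · exact pr 277 (by norm_num) (by omega) (by omega)
    · exact pr 541 (by norm_num) (by omega) (by omega)
    · exact pr 1049 (by norm_num) (by omega) (by omega)
    · exact pr 2081 (by norm_num) (by omega) (by omega)
  have h5 := six_le hm nc
  have h6 : a ^ (a - 6 * (m / 6)) ≤ (2 ^ (e + 1)) ^ (4 * e + 5) :=
    (Nat.pow_le_pow_left (by rw [pow_succ]; omega) _).trans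
      (Nat.pow_le_pow_right (by positivity) (by omega))
  rw [← pow_mul] at h6
  have h7 := (Nat.pow_le_pow_iff_right (show 1 < 2 by norm_num)).1 (h5.trans h6)
  have h8 := two_pow_ge e (by omega)
  have h9 : (e + 1) * (4 * e + 5) = 4 * e ^ 2 + 9 * e + 5 := by ring
  omega

end Cfsg.Agent.HallSym
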