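import Mathlib
import Cfsg.Agent.HallSym.Count
import Cfsg.Agent.HallSym.Eck

/-! Hall subgroups of symmetric and alternating groups: the classification. -/

set_option autoImplicit false

namespace Cfsg.Agent.HallSym

open Cfsg Cfsg.Agent.Core Subgroup Equiv Equiv.Perm Nat
open Cfsg.Agent.SymNil (Fx mem_Fx)
open Cfsg.Agent.Mix26 (E3 G3 cls mem_cls alt_cls_le)
open scoped Pointwise

variable {α : Type*} [Fintype α] [DecidableEq α] {π : Set ℕ} {H : Subgroup (Perm α)}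

theorem self_cls (H : Subgroup (Perm α)) (x : α) : x ∈ cls H x := mem_cls.2 (Or.inl rfl)

theorem cls_of_mem {x y : α} (h : y ∈ cls H x) : cls H y = cls H x :=
  Finset.ext fun _ => by
    rw [mem_cls, mem_cls]
    exact ⟨(mem_cls.1 h).trans, (mem_cls.1 h).symm.trans⟩

theorem smul_cls {g : Perm α} (hg : g ∈ H) (x : α) : g • cls H x = cls H (g x) :=
  Finset.ext fun y => by
    rw [← Finset.inv_smul_mem_iff, mem_cls, mem_cls]
    exact ⟨fun h => by simpa using h.conj hg, fun h => by simpa using h.conj (inv_mem hg)⟩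

theorem card_cls (x : α) : (cls H x).card = 1 ∨ 3 ≤ (cls H x).card := by
  by_cases h : ∀ y ∈ cls H x, y = x
  · exact Or.inl (Finset.card_eq_one.2 ⟨x, Finset.eq_singleton_iff_unique_mem.2 ⟨self_cls H x, h⟩⟩)
  push Not at h
  obtain ⟨y, hy, e⟩ := h
  obtain ⟨z, hz⟩ := (mem_cls.1 hy).resolve_left e.symm
  exact Or.inr (Finset.two_lt_card_iff.2 ⟨x, y, z, self_cls H x, hy, mem_cls.2 (Or.inr ⟨y, hz.sw⟩),
    hz.1, hz.2.1, hz.2.2.1⟩)

theorem WH.prime_cls (h : WH π H) (h2 : 2 ∈ π) (x : α) {r : ℕ} (hr : r.Prime)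
    (hx : r ≤ (cls H x).card) : r ∈ π := by
  by_cases c : r = 2
  · exact c ▸ h2
  obtain ⟨u, u1, u2, u3⟩ := exists_cyc hr.two_le hx
  refine h.1 r hr (Dvd.dvd.trans (by rw [u1.orderOf, u2]) (orderOf_dvd_natCard H (alt_cls_le H x
    ⟨mem_Fx.2 u3, mem_alternatingGroup.2 ?_⟩)))
  rw [u1.sign, u2, (hr.odd_of_ne_two c).neg_one_pow, neg_neg]

/-- the points whose class has `k` elements -/
noncomputable def V (H : Subgroup (Perm α)) (k : ℕ) : Finset α :=
  Finset.univ.filter fun x => (cls H x).card = k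

/-- the classes with `k` elements -/
noncomputable def Bk (H : Subgroup (Perm α)) (k : ℕ) : Finset (Finset α) := (V H k).image (cls H)

theorem mem_V {k : ℕ} {x : α} : x ∈ V H k ↔ (cls H x).card = k := by simp [V]

theorem mem_Bk {k : ℕ} {C : Finset α} : C ∈ Bk H k ↔ ∃ x, (cls H x).card = k ∧ cls H x = C := by
  simp [Bk, V]

theorem iv_V (k : ℕ) : Iv H (V H k) := fun g hg x hx => by
  rw [mem_V, ← smul_cls hg, Finset.card_smul_finset, ← mem_V]; exact hx

theorem dj_Bk (k : ℕ) : Dj (Bk H k) := fun C hC D hD x h1 h2 => by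
  obtain ⟨y, -, rfl⟩ := mem_Bk.1 hC
  obtain ⟨z, -, rfl⟩ := mem_Bk.1 hD
  rw [← cls_of_mem h1, cls_of_mem h2]

theorem card_Bk {k : ℕ} : ∀ C ∈ Bk H k, C.card = k := fun C hC => by
  obtain ⟨y, h, rfl⟩ := mem_Bk.1 hC
  exact h

theorem le_W_Bk (k : ℕ) : H ≤ W (Bk H k) := fun g hg => mem_W.2 fun C hC => by
  obtain ⟨y, h, rfl⟩ := mem_Bk.1 hC
  exact mem_Bk.2 ⟨g y, mem_V.1 (iv_V k g hg y (mem_V.2 h)), (smul_cls hg y).symm⟩

theorem card_V (k : ℕ) : (V H k).card = (Bk H k).card * k := by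
  have : V H k = (Bk H k).biUnion id := Finset.ext fun x => by
    rw [Finset.mem_biUnion, mem_V]
    refine ⟨fun h => ⟨_, mem_Bk.2 ⟨x, h, rfl⟩, self_cls H x⟩, fun ⟨C, hC, hx⟩ => ?_⟩
    obtain ⟨y, h, rfl⟩ := mem_Bk.1 hC
    rw [cls_of_mem hx, h]
  rw [this, card_bi (dj_Bk k), Finset.sum_congr rfl card_Bk, Finset.sum_const, smul_eq_mul]

theorem WH.V_one (h : WH π H) (h3 : 3 ∈ π) : (V H 1).card ≤ 2 := by
  by_contra c
  obtain ⟨u, hu, u1, u2, u3⟩ := h.cycle (iv_V 1) Nat.prime_three h3 (by norm_num) (not_le.1 c)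
  obtain ⟨x, hx⟩ : u.support.Nonempty := Finset.card_pos.1 (by omega)
  have := Finset.one_lt_card.2 ⟨x, self_cls H x, u x,
    mem_cls.2 (E3.of_three (card_support_eq_three_iff.1 u2) hu x), (mem_support.1 hx).symm⟩
  rw [mem_V.1 (u3 hx)] at this
  omega

theorem WH.two_cls (h : WH π H) (h2 : 2 ∈ π) (h3 : 3 ∈ π) {k : ℕ} (hk : 3 ≤ k)
    (hb : 2 ≤ (Bk H k).card) : k = 4 ∧ (Bk H k).card = 2 ∧ 5 ∉ π ∧ 7 ∉ π := by
  obtain ⟨C, hC⟩ : (Bk H k).Nonempty := Finset.card_pos.1 (by omega)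
  obtain ⟨x, hx, -⟩ := mem_Bk.1 hC
  have k2 := fun p hp r hr hπ => h.K2 (dj_Bk k) (le_W_Bk k) card_Bk (by omega) (p := p) hp
    (r := r) hr hπ
  obtain ⟨rfl, -⟩ := eck (a := k) (m := k - 1) (by omega) (by omega) fun r hr hrk => by
    have := k2 1 hb r hr (h.prime_cls h2 x hr (hx ▸ hrk))
    rwa [show 1 * k + k - 1 = k + (k - 1) by omega] at this
  refine ⟨rfl, le_antisymm (not_lt.1 fun c => k2 2 c 3 Nat.prime_three h3 (by decide)) hb,
    fun c => k2 1 hb 5 Nat.prime_five c (by decide), fun c => k2 1 hb 7 (by norm_num) c (by decide)⟩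

/-- the exceptional parameters -/
def Good (π : Set ℕ) (n a : ℕ) : Prop :=
  (n.Prime ∧ a + 1 = n ∧ ∀ r : ℕ, r.Prime → r ≤ n → (r ∈ π ↔ r < n)) ∨
    ((n = 7 ∨ n = 8) ∧ a = 4 ∧ ∀ r : ℕ, r.Prime → r ≤ n → (r ∈ π ↔ (r = 2 ∨ r = 3)))

theorem good_of {n : ℕ} (hn : n = 7 ∨ n = 8) (h2 : 2 ∈ π) (h3 : 3 ∈ π) (h5 : 5 ∉ π) (h7 : 7 ∉ π) :
    Good π n 4 := Or.inr ⟨hn, rfl, fun r hr hrn => by
  have : r ≤ 8 := by omega
  interval_cases r <;> first | exact absurd hr (by decide) | simp [h2, h3, h5, h7]⟩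

theorem mem_St {g : Perm α} {D : Finset α} (h : g • D = D ∨ g • D = Dᶜ) : g ∈ W {D, Dᶜ} := by
  refine mem_W.2 ?_
  simp only [Finset.mem_insert, Finset.mem_singleton, forall_eq_or_imp, forall_eq, smul_cpl]
  rcases h with h | h <;> simp [h]

theorem WH.main (h : WH π H) (h2 : 2 ∈ π) (h3 : 3 ∈ π)
    (hns : ∃ r : ℕ, r.Prime ∧ r ≤ Fintype.card α ∧ r ∉ π) :
    ∃ D : Finset α, H ≤ W {D, Dᶜ} ∧ Good π (Fintype.card α) D.card := by
  obtain ⟨r0, hr0, r1, r2⟩ := hns
  have n5 := (hr0.five_le_of_ne_two_of_ne_three (fun e => r2 (e ▸ h2)) fun e => r2 (e ▸ h3)).trans r1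
  obtain ⟨x, -, hx⟩ := Finset.exists_max_image Finset.univ (fun x => (cls H x).card)
    (Finset.card_pos.1 (by rw [Finset.card_univ]; omega))
  set a := (cls H x).card with ha
  have v1 := h.V_one h3
  have a3 : 3 ≤ a := by
    by_contra c
    have : Finset.univ ⊆ V H 1 := fun y hy => mem_V.2 ((card_cls y).resolve_right fun c' =>
      c (c'.trans (hx y hy)))
    have := Finset.card_le_card this
    rw [Finset.card_univ] at this
    omega
  have pa : ∀ r, r.Prime → r ≤ a → r ∈ π := fun r hr hra => h.prime_cls h2 x hr hra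
  have v3 : (V H 3).card ≤ 3 := by
    rw [card_V]
    have : (Bk H 3).card < 2 := not_le.1 fun c => by simpa using (h.two_cls h2 h3 le_rfl c).1
    omega
  have s13 : a = 4 → (V H a)ᶜ.card ≤ 5 := fun e => by
    have : (V H a)ᶜ ⊆ V H 1 ∪ V H 3 := fun y hy => by
      have := hx y (Finset.mem_univ y)
      have := card_cls (H := H) y
      rw [Finset.mem_compl, mem_V] at hy
      rw [Finset.mem_union, mem_V, mem_V]
      omega
    have := (Finset.card_le_card this).trans (Finset.card_union_le _ _)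
    omega
  have b1 : 0 < (Bk H a).card := Finset.card_pos.2 ⟨_, mem_Bk.2 ⟨x, rfl, rfl⟩⟩
  have cv := card_V (H := H) a
  have cn := Finset.card_add_card_compl (V H a)
  have k1 := fun r hr hπ => h.K1 (iv_V a) (iv_V a).compl disjoint_compl_right
    (by rw [cv]; nlinarith) (r := r) hr hπ
  refine ⟨cls H x, ?_⟩
  by_cases hb : 2 ≤ (Bk H a).card
  · obtain ⟨e, b2, h5, h7⟩ := h.two_cls h2 h3 a3 hb
    have s := s13 e
    have k3 := k1 3 Nat.prime_three h3
    rw [cv, b2] at k3 cn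
    generalize (V H a)ᶜ.card = m at s k3 cn
    rw [e] at k3 cn
    have m0 : m = 0 := by
      interval_cases m <;> first | rfl | exact absurd (by decide) k3
    refine ⟨fun g hg => mem_St ?_, (ha ▸ e).symm ▸ good_of (by omega) h2 h3 h5 h7⟩
    rw [smul_cls hg]
    by_cases c : g x ∈ cls H x
    · exact Or.inl (cls_of_mem c)
    refine Or.inr (Finset.eq_of_subset_of_card_le (fun y hy => Finset.mem_compl.2 fun hy' => c ?_) ?_)
    · rw [← cls_of_mem hy', cls_of_mem hy]; exact self_cls H _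
    · rw [Finset.card_compl, ← smul_cls hg, Finset.card_smul_finset]; omega
  have b2 : (Bk H a).card = 1 := by omega
  rw [b2, one_mul] at cv
  have hV : cls H x = V H a := Finset.eq_of_subset_of_card_le
    (fun y hy => mem_V.2 (by rw [cls_of_mem hy])) cv.le
  refine ⟨fun g hg => mem_St (Or.inl (smul_eq_of_iv (hV ▸ iv_V a g hg))), ?_⟩
  have ek : ∀ T, Iv H T → T ⊆ (V H a)ᶜ → 2 ≤ T.card → T.card < a → a = 4 ∧ T.card = 3 :=
    fun T t1 t2 t3 t4 => eck t4 t3 fun r hr hra => cv ▸ h.K1 (iv_V a) t1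
      (disjoint_compl_right.mono_right t2) (by omega) hr (pa r hr hra)
  have m0 : (V H a)ᶜ.card ≠ 0 := fun c => r2 (pa r0 hr0 (by omega))
  have one : (V H a)ᶜ.card = 1 → Good π (Fintype.card α) a := fun c => by
    rw [c, cv] at k1 cn
    simp only [Nat.choose_one_right, cn] at k1
    have np : (Fintype.card α).Prime := by
      by_contra c'
      have q1 := Nat.minFac_prime (show Fintype.card α ≠ 1 by omega)
      have q2 := (Nat.not_prime_iff_minFac_lt (show 2 ≤ Fintype.card α by omega)).1 c'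
      exact k1 _ q1 (pa _ q1 (by omega)) (Nat.minFac_dvd _)
    exact Or.inl ⟨np, cn, fun r hr hrn => ⟨fun hπ => lt_of_le_of_ne hrn fun e => k1 r hr hπ
      (e ▸ dvd_rfl), fun c' => pa r hr (by omega)⟩⟩
  by_cases e : a = 4
  · have s := s13 e
    rw [cv] at k1 cn
    generalize (V H a)ᶜ.card = m at s k1 cn m0 one
    rw [← ha]
    rw [e] at k1 cn one ⊢
    interval_cases m
    · exact (m0 rfl).elim
    · exact one rfl
    · exact absurd (by decide) (k1 3 Nat.prime_three h3)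
    · exact good_of (by omega) h2 h3 (fun c => k1 5 Nat.prime_five c (by decide))
        fun c => k1 7 (by norm_num) c (by decide)
    · exact absurd (by decide) (k1 2 Nat.prime_two h2)
    · exact absurd (by decide) (k1 2 Nat.prime_two h2)
  have s : (V H a)ᶜ ⊆ V H 1 := fun y hy => by
    have y1 := hx y (Finset.mem_univ y)
    rw [Finset.mem_compl, mem_V] at hy
    refine mem_V.2 ((card_cls y).resolve_right fun c => ?_)
    set k := (cls H y).card with hk
    have y2 : 0 < (Bk H k).card := Finset.card_pos.2 ⟨_, mem_Bk.2 ⟨y, rfl, rfl⟩⟩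
    have y3 : (Bk H k).card < 2 := not_le.1 fun c' => by
      obtain ⟨e1, -, e2, -⟩ := h.two_cls h2 h3 c c'
      exact e2 (pa 5 Nat.prime_five (by omega))
    have y4 := card_V (H := H) k
    rw [show (Bk H k).card = 1 by omega, one_mul] at y4
    exact e (ek _ (iv_V k) (fun z hz => Finset.mem_compl.2 fun hz' => hy
      ((mem_V.1 hz).symm.trans (mem_V.1 hz'))) (by omega) (by omega)).1
  have s2 := (Finset.card_le_card s).trans v1
  by_contra c
  exact e (ek _ (iv_V a).compl subset_rfl (by have := mt one c; omega) (by omega)).1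

theorem Good.facts {n a : ℕ} (h : Good π n a) (h5 : 5 ≤ n) :
    2 ≤ a ∧ n ≤ a + a ∧ 2 ∈ π ∧ ∀ r, r.Prime → r ≤ a → r ∈ π := by
  rcases h with ⟨-, h1, h2⟩ | ⟨h1, rfl, h2⟩
  · exact ⟨by omega, by omega, (h2 2 Nat.prime_two (by omega)).2 (by omega),
      fun r hr c => (h2 r hr (by omega)).2 (by omega)⟩
  · refine ⟨by omega, by omega, (h2 2 Nat.prime_two (by omega)).2 (Or.inl rfl),
      fun r hr c => (h2 r hr (by omega)).2 ?_⟩
    interval_cases r <;> first | exact absurd hr (by decide) | simp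

theorem Good.unique {n a b : ℕ} (h : Good π n a) (h' : Good π n b) : a = b := by
  have key : ∀ {a b}, (n.Prime ∧ a + 1 = n ∧ ∀ r : ℕ, r.Prime → r ≤ n → (r ∈ π ↔ r < n)) →
      ((n = 7 ∨ n = 8) ∧ b = 4 ∧ ∀ r : ℕ, r.Prime → r ≤ n → (r ∈ π ↔ (r = 2 ∨ r = 3))) → False :=
    fun h1 h2 => by
      have := (h2.2.2 5 Nat.prime_five (by omega)).1 ((h1.2.2 5 Nat.prime_five (by omega)).2 (by omega))
      omega
  rcases h with h | h <;> rcases h' with h' | h'
  exacts [by omega, (key h h').elim, (key h' h).elim, by omega]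

theorem pi_W {B : Finset (Finset α)} (hd : Dj B) {a : ℕ} (h1 : B.card ≤ a)
    (h2 : ∀ C ∈ B, C.card ≤ a) (h3 : (B.biUnion id)ᶜ.card ≤ a) (h : ∀ r, r.Prime → r ≤ a → r ∈ π) :
    IsPiSubgroup π (W B) := fun r hr c => by
  refine h r hr ?_
  rcases (hr.dvd_mul.1 (c.trans (card_W hd))).imp_right hr.dvd_mul.1 with c | c | c
  · exact (hr.dvd_factorial.1 c).trans h1
  · obtain ⟨C, hC, c⟩ := (hr.prime.dvd_finsetProd_iff _).1 c
    exact (hr.dvd_factorial.1 c).trans (h2 C hC)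
  · exact (hr.dvd_factorial.1 c).trans h3

theorem Good.pi {D : Finset α} (h : Good π (Fintype.card α) D.card) (h5 : 5 ≤ Fintype.card α) :
    IsPiSubgroup π (W {D, Dᶜ}) := by
  obtain ⟨h1, h2, -, h4⟩ := h.facts h5
  refine pi_W (dj_pair disjoint_compl_right) (Finset.card_le_two.trans h1) ?_ (by simp) h4
  simp only [Finset.mem_insert, Finset.mem_singleton, forall_eq_or_imp, forall_eq, Finset.card_compl]
  omega

theorem swap_St {D : Finset α} (h : 2 ≤ D.card) :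
    ∃ x y, x ∈ D ∧ y ∈ D ∧ x ≠ y ∧ swap x y ∈ W {D, Dᶜ} := by
  obtain ⟨x, hx, y, hy, e⟩ := Finset.one_lt_card.1 h
  exact ⟨x, y, hx, hy, e, Y_le_W (swap_mem_Y (dj_pair disjoint_compl_right)
    (Finset.mem_insert_self _ _) hx hy)⟩

theorem WH.main' (h : WH π H) (h2 : ∃ r s : ℕ, r.Prime ∧ s.Prime ∧ r ≠ s ∧ r ∈ π ∧ s ∈ π ∧
    r ≤ Fintype.card α ∧ s ≤ Fintype.card α)
    (hns : ∃ r : ℕ, r.Prime ∧ r ≤ Fintype.card α ∧ r ∉ π) :
    ∃ D : Finset α, H ≤ W {D, Dᶜ} ∧ Good π (Fintype.card α) D.card ∧ 2 ≤ D.card ∧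
      IsPiHall π (W {D, Dᶜ}) := by
  obtain ⟨a2, a3⟩ := h.two_three h2
  obtain ⟨D, h1, h3⟩ := h.main a2 a3 hns
  obtain ⟨r0, hr0, r1, r2⟩ := hns
  have n5 := (hr0.five_le_of_ne_two_of_ne_three (fun e => r2 (e ▸ a2)) fun e => r2 (e ▸ a3)).trans r1
  obtain ⟨x, y, -, -, e, hs⟩ := swap_St (h3.facts n5).1
  exact ⟨D, h1, h3, (h3.facts n5).1, h3.pi n5, fun r hr hπ => h.idx h1 e hs hr hπ⟩

theorem conj_St {D E : Finset α} (h : D.card = E.card) (h2 : 2 ≤ D.card) :
    ∃ g ∈ alternatingGroup α, W {E, Eᶜ} = (W {D, Dᶜ}).map (MulAut.conj g).toMonoidHom := by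
  obtain ⟨g, hg, e⟩ : ∃ g ∈ alternatingGroup α, g • D = E := by
    obtain ⟨g, hg⟩ := Equiv.Perm.exists_map_finset_eq D E h
    have e : g • D = E := by rw [← hg, Finset.map_eq_image]; rfl
    obtain ⟨x, hx, y, hy, xy⟩ := Finset.one_lt_card.1 h2
    rcases Int.units_eq_one_or (sign g) with c | c
    · exact ⟨g, mem_alternatingGroup.2 c, e⟩
    · refine ⟨g * swap x y, mem_alternatingGroup.2 (by simp [c, xy]), ?_⟩
      rw [mul_smul, mem_Y.1 (swap_mem_Y (dj_pair disjoint_compl_right)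
        (Finset.mem_insert_self D {Dᶜ}) hx hy) D (Finset.mem_insert_self _ _), e]
  refine ⟨g, hg, ?_⟩
  rw [W, W, ← MulAction.stabilizer_smul_eq_stabilizer_map_conj, Finset.smul_finset_insert,
    Finset.smul_finset_singleton, smul_cpl, e]

theorem hall_St {n : ℕ} (h5 : 5 ≤ n) {a : ℕ} (h : Good π n a) : IsEPiGroup π (Perm (Fin n)) := by
  have key : ∀ D : Finset (Fin n), D.card = a → (W {D, Dᶜ}).index ∣ n.choose a ∧
      (Y {D}).index = n.choose a ∧ Y {D} ≤ W {D, Dᶜ} := fun D hD => by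
    have y1 : Y {D} ≤ W {D, Dᶜ} := fun g hg => mem_St (Or.inl (mem_Y.1 hg D (by simp)))
    have y2 := card_Y (B := {D}) (by simp [Dj])
    have y3 := (Y {D}).card_mul_index
    have an : a ≤ n := by simpa [hD] using D.card_le_univ
    rw [y2, Nat.card_perm, Nat.card_fin, ← Nat.choose_mul_factorial_mul_factorial an] at y3
    simp only [Finset.prod_singleton, Finset.singleton_biUnion, id, Finset.card_compl, hD,
      Fintype.card_fin] at y3
    have y4 : (Y {D}).index = n.choose a :=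
      Nat.eq_of_mul_eq_mul_left (show 0 < a ! * (n - a)! by positivity) (by rw [y3]; ring)
    exact ⟨y4 ▸ index_dvd_of_le y1, y4, y1⟩
  have pi : ∀ D : Finset (Fin n), D.card = a → IsPiSubgroup π (W {D, Dᶜ}) := fun D hD =>
    Good.pi (by rwa [Fintype.card_fin, hD]) (by rwa [Fintype.card_fin])
  rcases h with ⟨h1, rfl, h2⟩ | ⟨rfl | rfl, rfl, h2⟩
  · obtain ⟨D, -, hD⟩ := Finset.exists_subset_card_eq (s := (Finset.univ : Finset (Fin (a + 1))))
      (n := a) (by simp)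
    refine ⟨_, pi D hD, fun r hr hπ c => ?_⟩
    have c := c.trans (key D hD).1
    rw [Nat.choose_succ_self_right] at c
    exact ((h2 r hr (Nat.le_of_dvd (by omega) c)).1 hπ).ne ((Nat.prime_dvd_prime_iff_eq hr h1).1 c)
  · refine ⟨_, pi {0, 1, 2, 3} rfl, fun r hr hπ c => ?_⟩
    have c : r ∣ 5 * 7 := c.trans (key _ rfl).1
    have := hr.dvd_mul.1 c
    rw [Nat.prime_dvd_prime_iff_eq hr Nat.prime_five, Nat.prime_dvd_prime_iff_eq hr (by norm_num)]
      at this
    have := (h2 r hr (by omega)).1 hπ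
    omega
  · refine ⟨_, pi {0, 1, 2, 3} rfl, fun r hr hπ c => ?_⟩
    obtain ⟨-, k1, k2⟩ := key {0, 1, 2, 3} rfl
    have k3 := relIndex_mul_index k2
    have k4 : (Y {({0, 1, 2, 3} : Finset (Fin 8))}).relIndex (W {{0, 1, 2, 3}, {0, 1, 2, 3}ᶜ}) = 2 := by
      obtain ⟨w, s⟩ : ∃ w : Perm (Fin 8), w • ({0, 1, 2, 3} : Finset (Fin 8)) = {0, 1, 2, 3}ᶜ :=
        ⟨swap 0 4 * swap 1 5 * swap 2 6 * swap 3 7, by decide⟩
      refine index_eq_two_iff.2 ⟨⟨w, mem_St (Or.inr s)⟩, fun b => ?_⟩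
      have ne : ({0, 1, 2, 3} : Finset (Fin 8))ᶜ ≠ {0, 1, 2, 3} := by decide
      have := mem_W.1 b.2 _ (Finset.mem_insert_self _ _)
      simp only [mem_subgroupOf, mem_Y, Finset.mem_singleton, forall_eq]
      rw [Subgroup.coe_mul, mul_smul, s, smul_cpl]
      rcases Finset.mem_insert.1 this with e | e
      · rw [e]; exact Or.inr ⟨rfl, ne⟩
      · rw [Finset.mem_singleton.1 e, compl_compl]; exact Or.inl ⟨rfl, ne⟩
    rw [k4, k1, show Nat.choose 8 4 = 2 * (5 * 7) by decide] at k3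
    rw [Nat.eq_of_mul_eq_mul_left two_pos k3] at c
    have := hr.dvd_mul.1 c
    rw [Nat.prime_dvd_prime_iff_eq hr Nat.prime_five, Nat.prime_dvd_prime_iff_eq hr (by norm_num)]
      at this
    have := (h2 r hr (by omega)).1 hπ
    omega

end Cfsg.Agent.HallSym
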