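import Mathlib
import Cfsg.Agent.HallSym.Main
import Cfsg.Agent.Core.Hall

/-! Hall subgroups of symmetric and alternating groups: consequences. -/

set_option autoImplicit false

namespace Cfsg.Agent.HallSym

open Cfsg Cfsg.Agent.Core Subgroup Equiv Equiv.Perm Nat
open scoped Pointwise

section gen
variable {G : Type*} [Group G] [Finite G] {π : Set ℕ}

theorem hall_ge_of_D (hD : IsDPiGroup π G) {K : Subgroup G} (hK : IsPiSubgroup π K) :
    ∃ M, IsPiHall π M ∧ K ≤ M := by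
  obtain ⟨M, h1, h2⟩ := Finite.exists_le_maximal hK
  refine ⟨M, ⟨h2.1, fun r hr hπ c => ?_⟩, h1⟩
  haveI := Fact.mk hr
  obtain ⟨P⟩ : Nonempty (Sylow r G) := inferInstance
  obtain ⟨N, h3, h4⟩ := Finite.exists_le_maximal (p := IsPiSubgroup π)
    (IsPiSubgroup.mono (isPGroup_iff_isPiSubgroup.1 P.isPGroup') (Set.singleton_subset_iff.2 hπ))
  obtain ⟨g, rfl⟩ := hD N M h4 h2
  rw [index_map_of_bijective (MulAut.conj g).bijective] at c
  exact P.not_dvd_index (c.trans (index_dvd_of_le h3))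

theorem C_of_D (hD : IsDPiGroup π G) : IsCPiGroup π G :=
  ⟨(hall_ge_of_D hD (isPiSubgroup_bot π)).imp fun _ h => h.1, fun _ _ h1 h2 =>
    hD _ _ ⟨h1.1, fun _ a b => (IsPiHall.eq_of_le h1 a b).ge⟩
      ⟨h2.1, fun _ a b => (IsPiHall.eq_of_le h2 a b).ge⟩⟩

theorem D_of_all (h : ∀ r : ℕ, r.Prime → r ∣ Nat.card G → r ∈ π) : IsDPiGroup π G := by
  have t : IsPiSubgroup π (⊤ : Subgroup G) := fun r hr c => h r hr (card_top (G := G) ▸ c)
  intro H K h1 h2
  refine ⟨1, ?_⟩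
  rw [top_le_iff.1 (h1.2 t le_top), top_le_iff.1 (h2.2 t le_top),
    map_top_of_surjective _ (MulAut.conj (1 : G)).surjective]

theorem D_of_one (h : ∀ r s : ℕ, r.Prime → s.Prime → r ∈ π → s ∈ π → r ∣ Nat.card G →
    s ∣ Nat.card G → r = s) : IsDPiGroup π G := by
  by_cases c : ∃ p : ℕ, p.Prime ∧ p ∈ π ∧ p ∣ Nat.card G
  · obtain ⟨p, hp, hπ, hd⟩ := c
    haveI := Fact.mk hp
    have key : ∀ H : Subgroup G, Maximal (IsPiSubgroup π) H → ∃ P : Sylow p G, H = P := fun H hH => by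
      obtain ⟨P, hP⟩ := (isPGroup_iff_isPiSubgroup.2 fun r hr c =>
        h r p hr hp (hH.1 r hr c) hπ (c.trans H.card_subgroup_dvd_card) hd :
          IsPGroup p H).exists_le_sylow
      exact ⟨P, le_antisymm hP (hH.2 (IsPiSubgroup.mono (isPGroup_iff_isPiSubgroup.1 P.isPGroup')
        (Set.singleton_subset_iff.2 hπ)) hP)⟩
    intro H K h1 h2
    obtain ⟨P, rfl⟩ := key H h1
    obtain ⟨Q, rfl⟩ := key K h2
    obtain ⟨g, rfl⟩ := MulAction.exists_smul_eq G P Q
    exact ⟨g, rfl⟩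
  · have key : ∀ H : Subgroup G, IsPiSubgroup π H → H = ⊥ := fun H hH => by
      rw [← card_eq_one]
      by_contra e
      obtain ⟨p, hp, hd⟩ := Nat.exists_prime_and_dvd e
      exact c ⟨p, hp, hH p hp hd, hd.trans H.card_subgroup_dvd_card⟩
    intro H K h1 h2
    exact ⟨1, by rw [key H h1.1, key K h2.1, Subgroup.map_bot]⟩

end gen

variable {α : Type*} [Fintype α] [DecidableEq α] {π : Set ℕ}

theorem wh_of_hall {H : Subgroup (Perm α)} (h : IsPiHall π H) : WH π H :=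
  ⟨h.1, (IsPiHall.subgroupOf_normal h _).2⟩

theorem wh_of_alt {M : Subgroup (alternatingGroup α)} (h : IsPiHall π M) :
    WH π (M.map (alternatingGroup α).subtype) :=
  ⟨isPiSubgroup_map_subtype_iff.2 h.1, by
    rw [relIndex, subgroupOf, comap_map_eq_self_of_injective (subtype_injective _)]
    exact h.2⟩

/-- two primes of `π` are at most `n` and some prime at most `n` is not in `π` -/
def NS (π : Set ℕ) (n : ℕ) : Prop :=
  (∃ r s : ℕ, r.Prime ∧ s.Prime ∧ r ≠ s ∧ r ∈ π ∧ s ∈ π ∧ r ≤ n ∧ s ≤ n) ∧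
    ∃ r : ℕ, r.Prime ∧ r ≤ n ∧ r ∉ π

theorem le_of_dvd_perm {r : ℕ} (hr : r.Prime) (h : r ∣ Nat.card (Perm α)) : r ≤ Fintype.card α := by
  rwa [Nat.card_perm, hr.dvd_factorial, Nat.card_eq_fintype_card] at h

theorem D_of_not_NS (h : ¬ NS π (Fintype.card α)) :
    IsDPiGroup π (Perm α) ∧ IsDPiGroup π (alternatingGroup α) := by
  have d := (alternatingGroup α).card_subgroup_dvd_card
  rcases not_and_or.1 h with h | h
  · have k : ∀ r s : ℕ, r.Prime → s.Prime → r ∈ π → s ∈ π → r ∣ Nat.card (Perm α) →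
        s ∣ Nat.card (Perm α) → r = s := fun r s hr hs a b c e => by_contra fun ne =>
      h ⟨r, s, hr, hs, ne, a, b, le_of_dvd_perm hr c, le_of_dvd_perm hs e⟩
    exact ⟨D_of_one k, D_of_one fun r s hr hs a b c e => k r s hr hs a b (c.trans d) (e.trans d)⟩
  · have k : ∀ r : ℕ, r.Prime → r ∣ Nat.card (Perm α) → r ∈ π := fun r hr c => by_contra fun ne =>
      h ⟨r, hr, le_of_dvd_perm hr c, ne⟩
    exact ⟨D_of_all k, D_of_all fun r hr c => k r hr (c.trans d)⟩

theorem hall_perm (h : NS π (Fintype.card α)) {H : Subgroup (Perm α)} (hH : IsPiHall π H) :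
    ∃ D : Finset α, H = W {D, Dᶜ} ∧ Good π (Fintype.card α) D.card ∧ 2 ≤ D.card := by
  obtain ⟨D, h1, h2, h3, h4⟩ := (wh_of_hall hH).main' h.1 h.2
  exact ⟨D, IsPiHall.eq_of_le hH h4.1 h1, h2, h3⟩

theorem hall_alt (h : NS π (Fintype.card α)) {M : Subgroup (alternatingGroup α)}
    (hM : IsPiHall π M) : ∃ D : Finset α, M = (W {D, Dᶜ}).subgroupOf _ ∧
      Good π (Fintype.card α) D.card ∧ 2 ≤ D.card ∧ IsPiHall π (W {D, Dᶜ}) := by
  obtain ⟨D, h1, h2, h3, h4⟩ := (wh_of_alt hM).main' h.1 h.2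
  exact ⟨D, IsPiHall.eq_of_le hM (IsPiSubgroup.subgroupOf h4.1 _) (map_le_iff_le_comap.1 h1),
    h2, h3, h4⟩

theorem alt_inter {M : Subgroup (alternatingGroup α)} (hM : IsPiHall π M) :
    ∃ M₀ : Subgroup (Perm α), IsPiHall π M₀ ∧ M = M₀.subgroupOf (alternatingGroup α) := by
  by_cases h : NS π (Fintype.card α)
  · obtain ⟨D, h1, -, -, h2⟩ := hall_alt h hM
    exact ⟨_, h2, h1⟩
  · obtain ⟨N, h1, h2⟩ := hall_ge_of_D (D_of_not_NS h).1 (wh_of_alt hM).1
    exact ⟨N, h1, IsPiHall.eq_of_le hM (IsPiSubgroup.subgroupOf h1.1 _) (map_le_iff_le_comap.1 h2)⟩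

theorem C_perm (hE : IsEPiGroup π (Perm α)) : IsCPiGroup π (Perm α) := by
  by_cases h : NS π (Fintype.card α)
  · refine ⟨hE, fun H K h1 h2 => ?_⟩
    obtain ⟨D, rfl, d1, d2⟩ := hall_perm h h1
    obtain ⟨E, rfl, e1, -⟩ := hall_perm h h2
    obtain ⟨g, -, hg⟩ := conj_St (d1.unique e1) d2
    exact ⟨g, hg⟩
  · exact C_of_D (D_of_not_NS h).1

theorem C_alt (hE : IsEPiGroup π (alternatingGroup α)) : IsCPiGroup π (alternatingGroup α) := by
  by_cases h : NS π (Fintype.card α)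
  · refine ⟨hE, fun H K h1 h2 => ?_⟩
    obtain ⟨D, rfl, d1, d2, -⟩ := hall_alt h h1
    obtain ⟨E, rfl, e1, -⟩ := hall_alt h h2
    obtain ⟨g, hg, e⟩ := conj_St (d1.unique e1) d2
    refine ⟨⟨g, hg⟩, ?_⟩
    rw [e]
    ext x
    rw [mem_subgroupOf, mem_map_equiv, mem_map_equiv, mem_subgroupOf]
    rfl
  · exact C_of_D (D_of_not_NS h).2

theorem not_D_alt {n : ℕ} (hn : 5 ≤ n) (h : NS π n) : ¬ IsDPiGroup π (alternatingGroup (Fin n)) := by
  intro hD
  have h' : NS π (Fintype.card (Fin n)) := by rwa [Fintype.card_fin]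
  have key : ∀ K : Subgroup (Perm (Fin n)), IsPiSubgroup π K → ∃ D : Finset (Fin n),
      Good π n D.card ∧ ∀ g ∈ K, g ∈ alternatingGroup (Fin n) → g • D = D ∨ g • D = Dᶜ :=
    fun K hK => by
      obtain ⟨M, h1, h2⟩ := hall_ge_of_D hD (IsPiSubgroup.subgroupOf hK _)
      obtain ⟨D, rfl, d1, -⟩ := hall_alt h' h1
      refine ⟨D, by rwa [Fintype.card_fin] at d1, fun g hg hg' => ?_⟩
      simpa using mem_W.1 (h2 (show (⟨g, hg'⟩ : alternatingGroup (Fin n)) ∈ K.subgroupOf _ from hg))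
        D (Finset.mem_insert_self _ _)
  obtain ⟨D₀, g0, -⟩ := key ⊥ (isPiSubgroup_bot π)
  obtain ⟨-, -, -, pa⟩ := g0.facts hn
  rcases id g0 with ⟨-, e, -⟩ | ⟨e, e4, -⟩
  · obtain ⟨T, -, hT⟩ := Finset.exists_subset_card_eq (s := (Finset.univ : Finset (Fin n)))
      (n := 2) (by simp; omega)
    have dj : Dj {T, Tᶜ} := dj_pair disjoint_compl_right
    have cT : Tᶜ.card = n - 2 := by rw [Finset.card_compl, hT, Fintype.card_fin]
    obtain ⟨D, d1, d2⟩ := key (W {T, Tᶜ}) (pi_W dj (Finset.card_le_two.trans (by omega)) (by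
      simp only [Finset.mem_insert, Finset.mem_singleton, forall_eq_or_imp, forall_eq]
      omega) (by simp) pa)
    have d3 := d1.unique g0
    obtain ⟨x, hx⟩ := Finset.card_eq_one.1 (show Dᶜ.card = 1 by
      rw [Finset.card_compl, Fintype.card_fin]; omega)
    have fx : ∀ g ∈ W {T, Tᶜ}, g ∈ alternatingGroup (Fin n) → g x = x := fun g h1 h2 => by
      rcases d2 g h1 h2 with c | c
      · have := smul_cpl g D
        rw [c, hx, Finset.smul_finset_singleton] at this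
        exact Finset.singleton_injective this
      · have := congrArg Finset.card c
        rw [Finset.card_smul_finset, hx, Finset.card_singleton] at this
        omega
    have fin : ∀ U ∈ ({T, Tᶜ} : Finset _), ∀ V ∈ ({T, Tᶜ} : Finset _), Disjoint U V → 2 ≤ U.card →
        2 ≤ V.card → x ∉ U := fun U hU V hV uv u2 v2 xU => by
      obtain ⟨y, hy, e1⟩ := Finset.exists_mem_ne (show 1 < U.card by omega) x
      obtain ⟨c, hc, d, hd, e2⟩ := Finset.one_lt_card.1 (show 1 < V.card by omega)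
      have := fx (swap x y * swap c d) (Y_le_W (mul_mem (swap_mem_Y dj hU xU hy)
        (swap_mem_Y dj hV hc hd))) (by simp [mem_alternatingGroup, e1.symm, e2])
      rw [mul_apply, swap_apply_of_ne_of_ne (fun e : x = c => Finset.disjoint_left.1 uv xU (e ▸ hc))
        (fun e : x = d => Finset.disjoint_left.1 uv xU (e ▸ hd)), swap_apply_left] at this
      exact e1 this
    exact fin Tᶜ (by simp) T (by simp) disjoint_compl_left (by omega) hT.ge (Finset.mem_compl.2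
      (fin T (by simp) Tᶜ (by simp) disjoint_compl_right hT.ge (by omega)))
  rw [e4] at pa g0
  rcases e with rfl | rfl
  · obtain ⟨D, d1, d2⟩ := key (W {{0, 1}, {2, 3}, {4, 5}}) (pi_W (by unfold Dj; decide +kernel)
      (by decide +kernel) (by decide +kernel) (by decide +kernel) pa)
    exact (by decide +kernel : ∀ D : Finset (Fin 7), D.card = 4 →
      ((swap 0 1 * swap 2 3 : Perm (Fin 7)) • D = D ∨ (swap 0 1 * swap 2 3 : Perm (Fin 7)) • D = Dᶜ) →
      ¬ ((swap 0 2 * swap 2 4 * swap 1 3 * swap 3 5 : Perm (Fin 7)) • D = D ∨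
        (swap 0 2 * swap 2 4 * swap 1 3 * swap 3 5 : Perm (Fin 7)) • D = Dᶜ)) D (d1.unique g0)
      (d2 _ (mem_W.2 (by decide +kernel)) (mem_alternatingGroup.2 (by decide +kernel)))
      (d2 _ (mem_W.2 (by decide +kernel)) (mem_alternatingGroup.2 (by decide +kernel)))
  · obtain ⟨D, d1, d2⟩ := key (W {{0, 1}, {2, 3}, {4, 5}}) (pi_W (by unfold Dj; decide +kernel)
      (by decide +kernel) (by decide +kernel) (by decide +kernel) pa)
    exact (by decide +kernel : ∀ D : Finset (Fin 8), D.card = 4 →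
      ((swap 0 1 * swap 2 3 : Perm (Fin 8)) • D = D ∨ (swap 0 1 * swap 2 3 : Perm (Fin 8)) • D = Dᶜ) →
      ¬ ((swap 0 2 * swap 2 4 * swap 1 3 * swap 3 5 : Perm (Fin 8)) • D = D ∨
        (swap 0 2 * swap 2 4 * swap 1 3 * swap 3 5 : Perm (Fin 8)) • D = Dᶜ)) D (d1.unique g0)
      (d2 _ (mem_W.2 (by decide +kernel)) (mem_alternatingGroup.2 (by decide +kernel)))
      (d2 _ (mem_W.2 (by decide +kernel)) (mem_alternatingGroup.2 (by decide +kernel)))

end Cfsg.Agent.HallSym
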